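import Mathlib
import Cfsg.Prelude.Def_FischerSpaces
import Cfsg.Prelude.Def_CaseTheorems

set_option autoImplicit false
set_option linter.style.haveILetI false
set_option linter.unusedVariables false

/-! Lifting connectedness of commuting graphs through an inverted odd centre. -/

namespace CfsgH8
open Cfsg

theorem lift_conn {G : Type*} [Group G] (Z L : Subgroup G) [hn : Z.Normal] (d : G)
    (hinv : ∀ c ∈ Z, d * c * d⁻¹ = c⁻¹) (hsq : ∀ z ∈ Z, ∃ w ∈ Z, w * w = z)
    (hcent : ∀ w ∈ Z, ∀ a ∈ L, w * a = a * w) (hZL : Z ≤ L)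
    (hperf : ∀ K : Subgroup G, (∀ a ∈ L, ∀ b ∈ L, a * b * a⁻¹ * b⁻¹ ∈ K) → L ≤ K)
    (hgen : L ⊔ Subgroup.zpowers d = ⊤)
    (hconn : (commutingGraph (conjugatesOf (QuotientGroup.mk d : G ⧸ Z))).Connected) :
    (commutingGraph (conjugatesOf d)).Connected := by
  have hinv' : ∀ x ∈ conjugatesOf d, ∀ c ∈ Z, x * c = c⁻¹ * x := by
    intro x hx c hc
    obtain ⟨g, rfl⟩ := isConj_iff.1 hx
    have h1 := hinv _ (hn.conj_mem c hc g⁻¹)
    rw [inv_inv] at h1
    have h2 : g * (d * (g⁻¹ * c * g) * d⁻¹) * g⁻¹ = c⁻¹ := by rw [h1]; group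
    calc g * d * g⁻¹ * c = g * (d * (g⁻¹ * c * g) * d⁻¹) * g⁻¹ * (g * d * g⁻¹) := by group
      _ = _ := by rw [h2]
  have hmulc : ∀ x ∈ conjugatesOf d, ∀ w ∈ Z, w⁻¹ * x * w = x * (w * w) := by
    intro x hx w hw
    have := hinv' x hx w hw
    rw [← this, mul_assoc]
  have hconjc : ∀ x ∈ conjugatesOf d, ∀ g : G, g * x * g⁻¹ ∈ conjugatesOf d := by
    intro x hx g
    exact (show IsConj d x from hx).trans (isConj_iff.2 ⟨g, rfl⟩)
  have hmulmem : ∀ x ∈ conjugatesOf d, ∀ c ∈ Z, x * c ∈ conjugatesOf d := by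
    intro x hx c hc
    obtain ⟨w, hw, rfl⟩ := hsq c hc
    rw [← hmulc x hx w hw]
    have := hconjc x hx w⁻¹
    rwa [inv_inv] at this
  set Γ := commutingGraph (conjugatesOf d) with hΓ
  have hd : d ∈ conjugatesOf d := IsConj.refl d
  have hreach : ∀ x y : conjugatesOf d, Commute (x : G) (y : G) → Γ.Reachable x y := by
    intro x y h
    by_cases hxy : x = y
    · rw [hxy]
    · exact SimpleGraph.Adj.reachable ((SimpleGraph.fromRel_adj _ _ _).2 ⟨hxy, Or.inl h⟩)
  -- conjugation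
  let f : G → (Γ →g Γ) := fun g =>
    { toFun := fun x => ⟨g * x * g⁻¹, hconjc x x.2 g⟩
      map_rel' := by
        intro a b hab
        obtain ⟨h1, h2⟩ := (SimpleGraph.fromRel_adj _ _ _).1 hab
        refine (SimpleGraph.fromRel_adj _ _ _).2 ⟨fun h => h1 ?_, ?_⟩
        · have h3 : g * (a : G) * g⁻¹ = g * (b : G) * g⁻¹ := congrArg Subtype.val h
          exact Subtype.ext (mul_left_cancel (mul_right_cancel h3))
        · have key : ∀ u v : G, Commute u v → Commute (g * u * g⁻¹) (g * v * g⁻¹) := by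
            intro u v huv
            have h4 : u * v = v * u := huv
            show g * u * g⁻¹ * (g * v * g⁻¹) = g * v * g⁻¹ * (g * u * g⁻¹)
            calc g * u * g⁻¹ * (g * v * g⁻¹) = g * (u * v) * g⁻¹ := by group
              _ = g * (v * u) * g⁻¹ := by rw [h4]
              _ = _ := by group
          exact h2.imp (key _ _) (key _ _) }
  let K : Subgroup G :=
    { carrier := {g | Γ.Reachable ⟨d, hd⟩ ⟨g * d * g⁻¹, hconjc d hd g⟩}
      mul_mem' := by
        intro a b ha hb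
        have h1 : Γ.Reachable ⟨a * d * a⁻¹, hconjc d hd a⟩ ⟨a * (b * d * b⁻¹) * a⁻¹, hconjc _ (hconjc d hd b) a⟩ :=
          SimpleGraph.Reachable.map (f a) hb
        have h2 := SimpleGraph.Reachable.trans (show Γ.Reachable ⟨d, hd⟩ ⟨a * d * a⁻¹, hconjc d hd a⟩ from ha) h1
        have e : (⟨a * (b * d * b⁻¹) * a⁻¹, hconjc _ (hconjc d hd b) a⟩ : conjugatesOf d) =
            ⟨a * b * d * (a * b)⁻¹, hconjc d hd (a * b)⟩ := Subtype.ext (by show _ = _; group)
        rw [e] at h2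
        exact h2
      one_mem' := by
        have e : (⟨1 * d * 1⁻¹, hconjc d hd 1⟩ : conjugatesOf d) = ⟨d, hd⟩ := Subtype.ext (by show _ = _; group)
        show Γ.Reachable ⟨d, hd⟩ ⟨1 * d * 1⁻¹, hconjc d hd 1⟩
        rw [e]
      inv_mem' := by
        intro a ha
        have h1 : Γ.Reachable ⟨a⁻¹ * d * a⁻¹⁻¹, hconjc d hd a⁻¹⟩ ⟨a⁻¹ * (a * d * a⁻¹) * a⁻¹⁻¹, hconjc _ (hconjc d hd a) a⁻¹⟩ :=
          SimpleGraph.Reachable.map (f a⁻¹) ha
        have e : (⟨a⁻¹ * (a * d * a⁻¹) * a⁻¹⁻¹, hconjc _ (hconjc d hd a) a⁻¹⟩ : conjugatesOf d) = ⟨d, hd⟩ :=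
          Subtype.ext (by show _ = _; group)
        rw [e] at h1
        exact h1.symm }
  -- lifting
  have hlift : ∀ v : conjugatesOf (QuotientGroup.mk d : G ⧸ Z),
      Relation.ReflTransGen (commutingGraph (conjugatesOf (QuotientGroup.mk d : G ⧸ Z))).Adj ⟨QuotientGroup.mk d, IsConj.refl _⟩ v →
      ∃ y : conjugatesOf d, (QuotientGroup.mk (y : G) : G ⧸ Z) = v ∧ Γ.Reachable ⟨d, hd⟩ y := by
    intro v hv
    induction hv with
    | refl => exact ⟨⟨d, hd⟩, rfl, SimpleGraph.Reachable.refl _⟩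
    | @tail v w _ hvw ih =>
      obtain ⟨y, hy, hyr⟩ := ih
      obtain ⟨g', hg'⟩ := isConj_iff.1 (show IsConj (QuotientGroup.mk d : G ⧸ Z) w from w.2)
      obtain ⟨g, rfl⟩ := QuotientGroup.mk_surjective g'
      have hw : (QuotientGroup.mk (g * d * g⁻¹) : G ⧸ Z) = w := hg'
      obtain ⟨-, h2⟩ := (SimpleGraph.fromRel_adj _ _ _).1 hvw
      have h3 : (v : G ⧸ Z) * w = w * v := by
        rcases h2 with h | h
        · exact h
        · exact h.symm
      set y' := g * d * g⁻¹ with hy'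
      have hy'm : y' ∈ conjugatesOf d := hconjc d hd g
      have hk : (y' * (y : G))⁻¹ * ((y : G) * y') ∈ Z := by
        have a1 : (QuotientGroup.mk (y' * (y : G)) : G ⧸ Z) = QuotientGroup.mk y' * QuotientGroup.mk (y : G) := rfl
        have a2 : (QuotientGroup.mk ((y : G) * y') : G ⧸ Z) = QuotientGroup.mk (y : G) * QuotientGroup.mk y' := rfl
        have a3 : (QuotientGroup.mk (y' * (y : G)) : G ⧸ Z) = QuotientGroup.mk ((y : G) * y') := by
          rw [a1, a2, hw, hy, h3]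
        exact QuotientGroup.eq.1 a3
      obtain ⟨c, hc, hcc⟩ := hsq _ (Z.inv_mem hk)
      refine ⟨⟨y' * c, hmulmem y' hy'm c hc⟩, ?_, ?_⟩
      · rw [← hw]
        show (QuotientGroup.mk (y' * c) : G ⧸ Z) = QuotientGroup.mk y'
        rw [eq_comm, QuotientGroup.eq, inv_mul_cancel_left]
        exact hc
      · refine hyr.trans (hreach _ _ ?_)
        show (y : G) * (y' * c) = y' * c * y
        set k := (y' * (y : G))⁻¹ * ((y : G) * y') with hkd
        have e1 : (y : G) * y' = y' * y * k := by rw [hkd]; group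
        have hkc : k * c = c⁻¹ := by
          have : k = (c * c)⁻¹ := by rw [hcc, inv_inv]
          rw [this]; group
        have e2 : c * (y : G) = y * c⁻¹ := by
          have := hinv' y y.2 c⁻¹ (Z.inv_mem hc)
          rw [inv_inv] at this
          exact this.symm
        calc (y : G) * (y' * c) = (y : G) * y' * c := by group
          _ = y' * y * (k * c) := by rw [e1]; group
          _ = y' * (y * c⁻¹) := by rw [hkc]; group
          _ = y' * c * y := by rw [← e2]; group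
  have hKZ : ∀ g : G, ∃ w ∈ Z, w * g ∈ K := by
    intro g
    have h1 := hconn.preconnected ⟨QuotientGroup.mk d, IsConj.refl _⟩
      ⟨QuotientGroup.mk (g * d * g⁻¹), isConj_iff.2 ⟨QuotientGroup.mk g, rfl⟩⟩
    rw [SimpleGraph.reachable_iff_reflTransGen] at h1
    obtain ⟨y, hy, hyr⟩ := hlift _ h1
    have h2 : (g * d * g⁻¹)⁻¹ * (y : G) ∈ Z := by
      rw [← QuotientGroup.eq]; exact hy.symm
    obtain ⟨w, hw, hww⟩ := hsq _ h2
    refine ⟨w⁻¹, Z.inv_mem hw, ?_⟩
    have h3 : (y : G) = w⁻¹ * g * d * (w⁻¹ * g)⁻¹ := by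
      have := hmulc _ (hconjc d hd g) w hw
      rw [hww, mul_inv_cancel_left] at this
      rw [← this]; group
    have h4 : y = ⟨w⁻¹ * g * d * (w⁻¹ * g)⁻¹, hconjc d hd (w⁻¹ * g)⟩ := Subtype.ext h3
    rw [h4] at hyr
    exact hyr
  have hLK : L ≤ K := by
    apply hperf
    intro a ha b hb
    obtain ⟨w, hw, hwa⟩ := hKZ a
    obtain ⟨w', hw', hwb⟩ := hKZ b
    have h1 := K.mul_mem (K.mul_mem (K.mul_mem hwa hwb) (K.inv_mem hwa)) (K.inv_mem hwb)
    have c1 : w * (w' * b) = w' * b * w := hcent w hw _ (L.mul_mem (hZL hw') hb)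
    have c2 : w' * a = a * w' := hcent w' hw' a ha
    have e : w * a * (w' * b) * (w * a)⁻¹ * (w' * b)⁻¹ = a * b * a⁻¹ * b⁻¹ := by
      have c3 : w * (a * (w' * b)) = a * (w' * b) * w := hcent w hw _ (L.mul_mem ha (L.mul_mem (hZL hw') hb))
      calc w * a * (w' * b) * (w * a)⁻¹ * (w' * b)⁻¹ = w * (a * (w' * b)) * a⁻¹ * w⁻¹ * b⁻¹ * w'⁻¹ := by group
        _ = a * (w' * b) * (w * a⁻¹) * w⁻¹ * b⁻¹ * w'⁻¹ := by rw [c3]; group
        _ = a * (w' * b) * (a⁻¹ * w) * w⁻¹ * b⁻¹ * w'⁻¹ := by rw [hcent w hw _ (L.inv_mem ha)]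
        _ = (a * w') * b * a⁻¹ * b⁻¹ * w'⁻¹ := by group
        _ = w' * (a * b * a⁻¹ * b⁻¹) * w'⁻¹ := by rw [← c2]; group
        _ = (a * b * a⁻¹ * b⁻¹) * w' * w'⁻¹ := by
          rw [hcent w' hw' _ (L.mul_mem (L.mul_mem (L.mul_mem ha hb) (L.inv_mem ha)) (L.inv_mem hb))]
        _ = _ := by group
    rw [e] at h1
    exact h1
  have hdK : d ∈ K := by
    have e : (⟨d * d * d⁻¹, hconjc d hd d⟩ : conjugatesOf d) = ⟨d, hd⟩ := Subtype.ext (by show _ = _; group)
    show Γ.Reachable ⟨d, hd⟩ ⟨d * d * d⁻¹, hconjc d hd d⟩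
    rw [e]
  have hK : ∀ g, g ∈ K := by
    intro g
    have : (⊤ : Subgroup G) ≤ K := by
      rw [← hgen]
      exact sup_le hLK (by rwa [Subgroup.zpowers_le])
    exact this trivial
  have hall : ∀ x : conjugatesOf d, Γ.Reachable ⟨d, hd⟩ x := by
    rintro ⟨x, hx⟩
    obtain ⟨g, rfl⟩ := isConj_iff.1 hx
    exact hK g
  haveI : Nonempty (conjugatesOf d) := ⟨⟨d, hd⟩⟩
  exact ⟨fun x y => (hall x).symm.trans (hall y)⟩

theorem lift_conn' {G : Type*} [Group G] [Finite G] (L : Subgroup G) [L.Normal] (hL : IsQuasisimple ↥L) (d : G)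
    (hgen : L ⊔ Subgroup.zpowers d = ⊤) (hodd : Odd (Nat.card ↥(Subgroup.center ↥L)))
    (hinv : ∀ c ∈ (Subgroup.center ↥L).map L.subtype, d * c * d⁻¹ = c⁻¹) [hn : ((Subgroup.center ↥L).map L.subtype).Normal]
    (hconn : (commutingGraph (conjugatesOf (QuotientGroup.mk d : G ⧸ (Subgroup.center ↥L).map L.subtype))).Connected) :
    (commutingGraph (conjugatesOf d)).Connected := by
  refine lift_conn ((Subgroup.center ↥L).map L.subtype) L d hinv ?_ ?_ ?_ ?_ hgen hconn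
  · rintro _ ⟨z, hz, rfl⟩
    obtain ⟨m, hm⟩ := hodd
    have h1 : z ^ (2 * m + 1) = 1 := by
      have := pow_card_eq_one' (x := (⟨z, hz⟩ : Subgroup.center ↥L))
      rw [hm] at this
      exact congrArg Subtype.val this
    refine ⟨L.subtype (z ^ (m + 1)), ⟨z ^ (m + 1), Subgroup.pow_mem _ hz _, rfl⟩, ?_⟩
    rw [← map_mul, ← pow_add]
    have e : m + 1 + (m + 1) = (2 * m + 1) + 1 := by ring
    rw [e, pow_succ, h1, one_mul]
  · rintro _ ⟨c, hc, rfl⟩ a ha
    have := Subgroup.mem_center_iff.1 hc ⟨a, ha⟩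
    exact (congrArg Subtype.val this).symm
  · rintro _ ⟨c, hc, rfl⟩
    exact c.2
  · intro K hK
    have h1 : commutator ↥L = ⊤ := hL.1.commutator_eq_top
    have h2 : commutator ↥L ≤ K.subgroupOf L := by
      rw [commutator_def, Subgroup.commutator_le]
      intro a _ b _
      exact hK a a.2 b b.2
    rw [h1] at h2
    intro x hx
    exact h2 (Subgroup.mem_top (⟨x, hx⟩ : ↥L))

end CfsgH8
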