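import Cfsg.Agent.H7.Extra

set_option autoImplicit false
set_option linter.unusedSectionVars false

/-! Automorphisms of an extraspecial 2-group trivial modulo the centre are inner. -/

namespace CfsgH8

open Subgroup Cfsg CfsgH7
open scoped Classical in
theorem extra_inner {E : Type*} [Group E] [Finite E] (hE : IsExtraspecial 2 E) (φ : E ≃* E)
    (hφ : ∀ x : E, φ x * x⁻¹ ∈ Subgroup.center E) : ∃ g : E, ∀ x : E, φ x = g * x * g⁻¹ := by
  haveI : Fintype E := Fintype.ofFinite E
  obtain ⟨z, h⟩ := XS.of hE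
  have hd : ∀ x, φ x = x ∨ φ x = z * x := by
    intro x
    rcases h.cen _ (hφ x) with h1 | h1
    · left; exact mul_inv_eq_one.1 h1
    · right; rw [← h1, inv_mul_cancel_right]
  have hzx : ∀ x : E, z * x ≠ x := fun x hx => h.z1 (mul_eq_right.1 hx)
  let ψ : E → ℤ := fun x => if φ x = x then 1 else -1
  have hψ1 : ∀ x, φ x = x → ψ x = 1 := fun x hx => if_pos hx
  have hψ2 : ∀ x, φ x = z * x → ψ x = -1 := fun x hx => if_neg (by rw [hx]; exact hzx x)
  have hψm : ∀ x y, ψ (x * y) = ψ x * ψ y := by
    intro x y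
    rcases hd x with hx | hx <;> rcases hd y with hy | hy
    · rw [hψ1 x hx, hψ1 y hy, hψ1 (x * y) (by rw [map_mul, hx, hy])]; norm_num
    · rw [hψ1 x hx, hψ2 y hy, hψ2 (x * y) (by rw [map_mul, hx, hy, ← mul_assoc, ← h.zc x, mul_assoc])]; norm_num
    · rw [hψ2 x hx, hψ1 y hy, hψ2 (x * y) (by rw [map_mul, hx, hy, mul_assoc])]; norm_num
    · rw [hψ2 x hx, hψ2 y hy, hψ1 (x * y) (by
        rw [map_mul, hx, hy, ← mul_assoc (z * x), mul_assoc z x z, ← h.zc x, ← mul_assoc z z, h.zz, one_mul])]; norm_num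
  have hψz : ψ z = 1 := by
    apply hψ1
    rcases hd z with h1 | h1
    · exact h1
    · rw [h.zz] at h1
      exact absurd (φ.map_eq_one_iff.1 h1) h.z1
  have hψo : ψ 1 = 1 := hψ1 1 (map_one φ)
  -- values ±1
  have hψpm : ∀ x, ψ x = 1 ∨ ψ x = -1 := fun x => (hd x).imp (hψ1 x) (hψ2 x)
  have hcpm : ∀ x a : E, chi x a = 1 ∨ chi x a = -1 := fun x a => by
    unfold chi
    split_ifs
    · exact Or.inl rfl
    · exact Or.inr rfl
  by_contra hne
  push Not at hne
  have hg : ∀ g : E, ∑ x : E, ψ x * chi x g = 0 := by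
    intro g
    obtain ⟨x0, hx0⟩ := hne g
    have h0 : ψ x0 * chi x0 g = -1 := by
      rcases hd x0 with hx | hx
      · rw [hψ1 x0 hx, one_mul]
        have : x0 * g ≠ g * x0 := by
          intro h1
          apply hx0
          rw [hx, ← h1, mul_inv_cancel_right]
        exact chi_neg this
      · rw [hψ2 x0 hx]
        have : x0 * g = g * x0 := by
          rcases h.comm g x0 with h1 | h1
          · exact h1.symm
          · exfalso
            apply hx0
            rw [hx, h1, mul_assoc, mul_inv_cancel_right]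
        rw [chi_one this]; norm_num
    have h1 : ∑ x : E, ψ x * chi x g = ∑ x : E, ψ (x0 * x) * chi (x0 * x) g :=
      (Fintype.sum_equiv (Equiv.mulLeft x0) _ _ (fun _ => rfl)).symm
    have h2 : ∀ x : E, ψ (x0 * x) * chi (x0 * x) g = -(ψ x * chi x g) := by
      intro x
      rw [hψm, h.chi_mul]
      have : ψ x0 * ψ x * (chi x0 g * chi x g) = (ψ x0 * chi x0 g) * (ψ x * chi x g) := by ring
      rw [this, h0]; ring
    have h3 : ∑ x : E, ψ x * chi x g = - ∑ x : E, ψ x * chi x g := by
      conv_lhs => rw [h1]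
      rw [Finset.sum_congr rfl (fun x _ => h2 x), Finset.sum_neg_distrib]
    omega
  have htot : ∑ g : E, ∑ x : E, ψ x * chi x g = 0 := Finset.sum_eq_zero fun g _ => hg g
  rw [Finset.sum_comm] at htot
  have hin : ∀ x : E, ∑ g : E, ψ x * chi x g = if x = 1 ∨ x = z then (Fintype.card E : ℤ) else 0 := by
    intro x
    rw [← Finset.mul_sum]
    split_ifs with hx
    · have : ∀ g : E, chi x g = 1 := by
        intro g
        apply chi_one
        rcases hx with rfl | rfl
        · rw [one_mul, mul_one]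
        · exact h.zc g
      rw [Finset.sum_congr rfl (fun g _ => this g), Finset.sum_const, Finset.card_univ, nsmul_eq_mul, mul_one]
      rcases hx with rfl | rfl
      · rw [hψo, one_mul]
      · rw [hψz, one_mul]
    · have hxc : x ∉ Subgroup.center E := fun hc => hx (h.cen x hc)
      have := h.sum_left hxc
      rw [Finset.sum_congr rfl (fun g _ => chi_symm x g), this, mul_zero]
  rw [Finset.sum_congr rfl (fun x _ => hin x), Finset.sum_ite, Finset.sum_const_zero, add_zero, Finset.sum_const,
    nsmul_eq_mul] at htot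
  have hc0 : (Fintype.card E : ℤ) ≠ 0 := by
    have := Fintype.card_pos (α := E)
    omega
  rcases mul_eq_zero.1 htot with h1 | h1
  · have h2 : (Finset.univ.filter (fun x : E => x = 1 ∨ x = z)).card = 0 := by exact_mod_cast h1
    rw [Finset.card_eq_zero] at h2
    have h3 : (1 : E) ∈ Finset.univ.filter (fun x : E => x = 1 ∨ x = z) := by simp
    rw [h2] at h3
    simp at h3
  · exact hc0 h1

end CfsgH8
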