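import Cfsg.Agent.H6.PSLSylow
import Cfsg.Agent.H6.PSLAuts
import Cfsg.Agent.H6.Cls9
import Cfsg.Agent.H8.FusSimple

set_option autoImplicit false
set_option linter.unusedSectionVars false
set_option linter.unusedVariables false

/-! Simplicity of the `p`-fusion system of `PSL_m(K)` in the defining characteristic. -/

namespace CfsgH8.PSLf
open Matrix CfsgH6 CfsgH8 Cfsg

variable {K : Type*} [Field K] {m : ℕ}

theorem conj1 {i j k l : Fin m} (hij : i ≠ j) (hkl : k ≠ l) :
    ∃ (g : SpecialLinearGroup (Fin m) K) (c : K), c ≠ 0 ∧ ∀ t, g * xe i j t * g⁻¹ = xe k l (c * t) := by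
  -- first step
  obtain ⟨g1, c1, j1, hkj, hc1, h1⟩ : ∃ (g : SpecialLinearGroup (Fin m) K) (c : K) (j1 : Fin m), k ≠ j1 ∧ c ≠ 0 ∧
      ∀ t, g * xe i j t * g⁻¹ = xe k j1 (c * t) := by
    by_cases hik : i = k
    · subst hik
      exact ⟨1, 1, j, hij, one_ne_zero, fun t => by simp⟩
    · obtain ⟨c, hc, h⟩ := mono_conj (Cls.nx_mono (F := K) hik one_ne_zero) hij
      refine ⟨Cls.nx i k 1, c, Equiv.swap i k j, ?_, hc, fun t => ?_⟩
      · intro h'
        apply hij
        have : Equiv.swap i k j = Equiv.swap i k i := by rw [← h', Equiv.swap_apply_left]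
        exact ((Equiv.swap i k).injective this).symm
      · rw [h t, Equiv.swap_apply_left]
  by_cases hjl : j1 = l
  · subst hjl; exact ⟨g1, c1, hc1, h1⟩
  · obtain ⟨c, hc, h⟩ := mono_conj (Cls.nx_mono (F := K) hjl one_ne_zero) hkj
    refine ⟨Cls.nx j1 l 1 * g1, c * c1, mul_ne_zero hc hc1, fun t => ?_⟩
    have e : Cls.nx j1 l 1 * g1 * xe i j t * (Cls.nx j1 l 1 * g1)⁻¹ =
        Cls.nx j1 l 1 * (g1 * xe i j t * g1⁻¹) * (Cls.nx j1 l 1)⁻¹ := by group
    rw [e, h1, h, Equiv.swap_apply_left, Equiv.swap_apply_of_ne_of_ne hkj hkl, mul_assoc]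

theorem scale1 {k l n : Fin m} (hkl : k ≠ l) (hkn : k ≠ n) (hln : l ≠ n) {a : K} (ha : a ≠ 0) (t : K) :
    Matrix.SpecialLinearGroup.diag2n hkn a ha * xe k l t * (Matrix.SpecialLinearGroup.diag2n hkn a ha)⁻¹ = xe k l (a * t) := by
  rw [mul_inv_eq_iff_eq_mul]
  apply Subtype.ext
  ext x y
  rw [mul_xe_apply hkl, xe_mul_apply hkl, Matrix.SpecialLinearGroup.diag2n_coe]
  simp only [Matrix.diagonal_apply]
  by_cases hxk : x = k
  · subst hxk
    by_cases hyl : y = l
    · subst hyl
      simp [hkl, hkl.symm, hln]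
    · simp [hyl, Ne.symm hyl]
  · simp [hxk]

theorem conj_all (hm : 3 ≤ m) {i j k l : Fin m} (hij : i ≠ j) (hkl : k ≠ l) {c t : K} (hc : c ≠ 0) (ht : t ≠ 0) :
    ∃ g : SpecialLinearGroup (Fin m) K, g * xe i j c * g⁻¹ = xe k l t := by
  obtain ⟨g, d, hd, h⟩ := conj1 (K := K) hij hkl
  obtain ⟨n, hn1, hn2⟩ : ∃ n : Fin m, k ≠ n ∧ l ≠ n := by
    by_contra hne
    push Not at hne
    have h1 : (Finset.univ : Finset (Fin m)) ⊆ {k, l} := by
      intro n _
      by_cases hn : k = n
      · simp [hn]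
      · simp [hne n hn]
    have h2 := Finset.card_le_card h1
    rw [Finset.card_univ, Fintype.card_fin] at h2
    have h3 : ({k, l} : Finset (Fin m)).card ≤ 2 := Finset.card_le_two
    omega
  have ha : t / (d * c) ≠ 0 := div_ne_zero ht (mul_ne_zero hd hc)
  refine ⟨Matrix.SpecialLinearGroup.diag2n hn1 _ ha * g, ?_⟩
  have e : Matrix.SpecialLinearGroup.diag2n hn1 _ ha * g * xe i j c * (Matrix.SpecialLinearGroup.diag2n hn1 _ ha * g)⁻¹ =
      Matrix.SpecialLinearGroup.diag2n hn1 _ ha * (g * xe i j c * g⁻¹) * (Matrix.SpecialLinearGroup.diag2n hn1 _ ha)⁻¹ := by group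
  rw [e, h, scale1 hkl hn1 hn2 ha]
  congr 1
  field_simp

/-- the unitriangular group is generated by the root elements -/
theorem UU_gen {M : Subgroup (SpecialLinearGroup (Fin m) K)} (hM : ∀ i j : Fin m, i < j → ∀ t, xe i j t ∈ M) :
    UU m K ≤ M := by
  have key : ∀ d n : ℕ, n + d = m * m → ∀ u ∈ UU m K,
      (∀ i j : Fin m, i < j → (i : ℕ) * m + j < n → (u : Matrix (Fin m) (Fin m) K) i j = 0) → u ∈ M := by
    intro d
    induction d with
    | zero =>
      intro n hn u hu h
      have : u = 1 := by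
        apply Subtype.ext
        ext i j
        show (u : Matrix (Fin m) (Fin m) K) i j = (1 : Matrix (Fin m) (Fin m) K) i j
        rw [Matrix.one_apply]
        rcases lt_trichotomy i j with hij | hij | hij
        · rw [if_neg hij.ne]
          apply h i j hij
          have h1 : (i : ℕ) + 1 ≤ m := i.2
          have h2 := j.2
          calc (i : ℕ) * m + j < (i : ℕ) * m + m := by omega
            _ = (i + 1) * m := by ring
            _ ≤ m * m := Nat.mul_le_mul_right m h1
            _ = n := by omega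
        · subst hij; rw [if_pos rfl]; exact hu.1 i
        · rw [if_neg hij.ne']; exact hu.2 i j hij
      rw [this]; exact M.one_mem
    | succ d ih =>
      intro n hn u hu h
      by_cases hex : ∃ i j : Fin m, i < j ∧ (i : ℕ) * m + j = n
      · obtain ⟨i, j, hij, hijn⟩ := hex
        have hxm : xe i j (-(u : Matrix (Fin m) (Fin m) K) i j) ∈ UU m K := xe_mem_UU hij _
        have h1 := ih (n + 1) (by omega) (xe i j (-(u : Matrix (Fin m) (Fin m) K) i j) * u)
          ((UU m K).mul_mem hxm hu) ?_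
        · have : u = (xe i j (-(u : Matrix (Fin m) (Fin m) K) i j))⁻¹ *
              (xe i j (-(u : Matrix (Fin m) (Fin m) K) i j) * u) := by group
          rw [this]
          exact M.mul_mem (M.inv_mem (hM i j hij _)) h1
        · intro a b hab hlt
          rw [xe_mul_apply hij.ne]
          rcases Nat.lt_succ_iff_lt_or_eq.1 hlt with hlt | heq
          · rw [h a b hab hlt, zero_add]
            split_ifs with hai
            · subst hai
              have hbj : b < j := by
                rw [← hijn] at hlt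
                exact Fin.lt_def.2 (by omega)
              rw [hu.2 j b hbj, mul_zero]
            · rfl
          · -- a = i, b = j
            have hm0 : 0 < m := i.pos
            have e1 : (a : ℕ) = i := by
              have h2 : ((a : ℕ) * m + b) / m = a := by
                rw [mul_comm, Nat.mul_add_div hm0, Nat.div_eq_of_lt b.2, add_zero]
              have h3 : ((i : ℕ) * m + j) / m = i := by
                rw [mul_comm, Nat.mul_add_div hm0, Nat.div_eq_of_lt j.2, add_zero]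
              rw [← h2, heq, ← hijn, h3]
            have e2 : (b : ℕ) = j := by
              rw [e1, ← hijn] at heq; omega
            have e1' : a = i := Fin.ext e1
            have e2' : b = j := Fin.ext e2
            subst e1' e2'
            rw [if_pos rfl, hu.1 b]; ring
      · refine ih (n + 1) (by omega) u hu (fun i j hij hlt => ?_)
        rcases Nat.lt_succ_iff_lt_or_eq.1 hlt with hlt | heq
        · exact h i j hij hlt
        · exact absurd ⟨i, j, hij, heq⟩ hex
  intro u hu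
  exact key (m * m) 0 (by omega) u hu (fun i j _ h => absurd h (by omega))

/-- the centre of the unitriangular group -/
theorem center_UT (hm : 2 ≤ m) {y : ProjectiveSpecialLinearGroup (Fin m) K} (hy : y ∈ UT m K)
    (hc : ∀ x ∈ UT m K, y * x = x * y) (hy1 : y ≠ 1) :
    ∃ c : K, c ≠ 0 ∧ y = XT ⟨0, by omega⟩ ⟨m - 1, by omega⟩ c := by
  obtain ⟨u, hu, rfl⟩ := hy
  have hcomm : ∀ i j : Fin m, i < j → u * xe i j 1 = xe i j 1 * u := by
    intro i j hij
    have h1 := hc (XT i j 1) ⟨xe i j 1, xe_mem_UU hij 1, rfl⟩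
    rw [XT, ← map_mul, ← map_mul] at h1
    have hx : xe i j (1 : K) ∈ UU m K := xe_mem_UU hij 1
    exact mkT_inj_of_diag i (((UU m K).mul_mem hu hx).1 i) (((UU m K).mul_mem hx hu).1 i) h1
  have hent : ∀ i j : Fin m, i < j → ∀ a b : Fin m, (if b = j then (u : Matrix (Fin m) (Fin m) K) a i else 0) =
      (if a = i then (u : Matrix (Fin m) (Fin m) K) j b else 0) := by
    intro i j hij a b
    have h1 := congrArg (fun g : SpecialLinearGroup (Fin m) K => (g : Matrix (Fin m) (Fin m) K) a b) (hcomm i j hij)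
    simp only [mul_xe_apply hij.ne, xe_mul_apply hij.ne, mul_one, one_mul] at h1
    simpa using h1
  have hzero : ∀ a b : Fin m, a < b → ¬ ((a : ℕ) = 0 ∧ (b : ℕ) = m - 1) →
      (u : Matrix (Fin m) (Fin m) K) a b = 0 := by
    intro a b hab hne
    by_cases ha : (a : ℕ) = 0
    · have hb : (b : ℕ) ≠ m - 1 := fun h => hne ⟨ha, h⟩
      have hlt : b < ⟨m - 1, by omega⟩ := Fin.lt_def.2 (by have := b.2; simp only; omega)
      have h1 := hent b _ hlt a ⟨m - 1, by omega⟩
      rw [if_pos rfl, if_neg hab.ne] at h1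
      exact h1
    · have hlt : (⟨0, by omega⟩ : Fin m) < a := Fin.lt_def.2 (by simp only; omega)
      have h1 := hent _ a hlt ⟨0, by omega⟩ b
      rw [if_neg hab.ne', if_pos rfl] at h1
      exact h1.symm
  have hne : (⟨0, by omega⟩ : Fin m) ≠ ⟨m - 1, by omega⟩ := by
    intro h
    have := congrArg Fin.val h
    simp only at this
    omega
  have hu' : u = xe ⟨0, by omega⟩ ⟨m - 1, by omega⟩ ((u : Matrix (Fin m) (Fin m) K) ⟨0, by omega⟩ ⟨m - 1, by omega⟩) := by
    apply Subtype.ext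
    ext a b
    rw [xe_apply hne]
    rcases lt_trichotomy a b with hab | hab | hab
    · rw [if_neg hab.ne, zero_add]
      by_cases h : (a : ℕ) = 0 ∧ (b : ℕ) = m - 1
      · have e1 : a = ⟨0, by omega⟩ := Fin.ext h.1
        have e2 : b = ⟨m - 1, by omega⟩ := Fin.ext h.2
        rw [if_pos ⟨e1.symm, e2.symm⟩, e1, e2]
      · rw [if_neg, hzero a b hab h]
        rintro ⟨rfl, rfl⟩
        exact h ⟨rfl, rfl⟩
    · subst hab
      rw [if_pos rfl, hu.1 a, if_neg, add_zero]
      rintro ⟨h1, h2⟩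
      exact hne (h1.trans h2.symm)
    · rw [if_neg hab.ne', hu.2 a b hab, if_neg, add_zero]
      rintro ⟨rfl, rfl⟩
      exact absurd hab (by simp)
  refine ⟨_, ?_, by rw [XT, ← hu']⟩
  intro h0
  apply hy1
  rw [hu', h0, xe_zero, map_one]

theorem strongly_closed_eq [Finite K] {p : ℕ} [Fact p.Prime] [CharP K p] (hm : 3 ≤ m)
    (T : Subgroup (ProjectiveSpecialLinearGroup (Fin m) K)) (hT : T ≤ UT m K)
    (hTS : ∀ x ∈ T, ∀ g, g * x * g⁻¹ ∈ UT m K → g * x * g⁻¹ ∈ T) : T = ⊥ ∨ T = UT m K := by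
  by_cases hT1 : T = ⊥
  · exact Or.inl hT1
  right
  have hTn : UT m K ≤ Subgroup.normalizer (T : Set _) := by
    intro h hh
    rw [Subgroup.mem_normalizer_iff]
    intro x
    constructor
    · intro hx
      exact hTS x hx h ((UT m K).mul_mem ((UT m K).mul_mem hh (hT hx)) ((UT m K).inv_mem hh))
    · intro hx
      have e : h⁻¹ * (h * x * h⁻¹) * h⁻¹⁻¹ = x := by group
      have h1 := hTS _ hx h⁻¹ (by
        rw [e]
        have e' : x = h⁻¹ * (h * x * h⁻¹) * h := by group
        rw [e']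
        exact (UT m K).mul_mem ((UT m K).mul_mem ((UT m K).inv_mem hh) (hT hx)) hh)
      rwa [e] at h1
  obtain ⟨y, hyT, hyc, hy1⟩ := exists_central_of_normal (UT_isPGroup (p := p)) hT hTn hT1
  obtain ⟨c, hc, hy⟩ := center_UT (by omega) (hT hyT) hyc hy1
  have hne : (⟨0, by omega⟩ : Fin m) ≠ ⟨m - 1, by omega⟩ := by
    intro h
    have := congrArg Fin.val h
    simp only at this
    omega
  refine le_antisymm hT ?_
  have hgen : UU m K ≤ T.comap (mkT m K) := by
    apply UU_gen
    intro i j hij t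
    by_cases ht : t = 0
    · rw [ht, xe_zero]; exact Subgroup.one_mem _
    · obtain ⟨g, hg⟩ := conj_all hm hne hij.ne hc ht
      have h1 : mkT m K g * y * (mkT m K g)⁻¹ = XT i j t := by
        rw [hy, XT, XT, ← hg]; simp
      have h2 := hTS y hyT (mkT m K g) (by rw [h1]; exact ⟨_, xe_mem_UU hij t, rfl⟩)
      rw [h1] at h2
      exact h2
  rintro _ ⟨u, hu, rfl⟩
  exact hgen hu

theorem xe_pow (i j : Fin m) (t : K) (n : ℕ) : (xe i j t) ^ n = xe i j (n * t) := by
  induction n with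
  | zero => simp [xe_zero]
  | succ n ih => rw [pow_succ, ih, ← xe_add]; congr 1; push_cast; ring

theorem xe_pow_p {p : ℕ} [CharP K p] (i j : Fin m) (t : K) : (xe i j t) ^ p = 1 := by
  rw [xe_pow, CharP.cast_eq_zero, zero_mul, xe_zero]

/-- commuting in `PSL` with a unipotent element -/
theorem comm_of_mkT {p : ℕ} [Fact p.Prime] [CharP K p] (hm : 0 < m) {x g : SpecialLinearGroup (Fin m) K} {n : ℕ}
    (hx : x ^ p ^ n = 1) (h : mkT m K x * mkT m K g = mkT m K g * mkT m K x) : x * g = g * x := by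
  rw [← map_mul, ← map_mul] at h
  have h1 : (g * x)⁻¹ * (x * g) ∈ Subgroup.center (SpecialLinearGroup (Fin m) K) := QuotientGroup.eq.1 h.symm
  set z := (g * x)⁻¹ * (x * g) with hz
  have hxz : g⁻¹ * x * g = x * z := by rw [hz]; group
  have hcz : Commute x z := (Subgroup.mem_center_iff.1 h1 x)
  have h2 : (g⁻¹ * x * g) ^ p ^ n = 1 := by
    have : (g⁻¹ * x * g⁻¹⁻¹) ^ p ^ n = g⁻¹ * x ^ p ^ n * g⁻¹⁻¹ := conj_pow
    rw [inv_inv] at this
    rw [this, hx]; group
  rw [hxz, hcz.mul_pow, hx, one_mul] at h2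
  obtain ⟨r, hr, hrz⟩ := Matrix.SpecialLinearGroup.mem_center_iff.1 h1
  have h3 : r ^ p ^ n = 1 := by
    have h4 : ((z ^ p ^ n : SpecialLinearGroup (Fin m) K) : Matrix (Fin m) (Fin m) K) ⟨0, hm⟩ ⟨0, hm⟩ = 1 := by
      rw [h2]; simp
    rw [Matrix.SpecialLinearGroup.coe_pow, ← hrz, ← map_pow, Matrix.scalar_apply, Matrix.diagonal_apply_eq] at h4
    exact h4
  have hinj : Function.Injective (fun x : K => x ^ p ^ n) := by
    have := (iterateFrobenius K p n).injective
    intro a c hac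
    apply this
    simpa [iterateFrobenius_def] using hac
  have h4 : r = 1 := hinj (by show r ^ p ^ n = 1 ^ p ^ n; rw [h3, one_pow])
  have h5 : z = 1 := by
    apply Subtype.ext
    rw [← hrz, h4, map_one]; rfl
  rw [h5, mul_one] at hxz
  calc x * g = g * (g⁻¹ * x * g) := by group
    _ = g * x := by rw [hxz]

/-- entries of a product where a row is standard -/
theorem row_mul {g h : Matrix (Fin m) (Fin m) K} {i : Fin m} (hg : ∀ j, g i j = if i = j then 1 else 0) (j : Fin m) :
    (g * h) i j = h i j := by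
  rw [Matrix.mul_apply, Finset.sum_eq_single i]
  · rw [hg, if_pos rfl, one_mul]
  · intro l _ hl; rw [hg, if_neg (Ne.symm hl), zero_mul]
  · simp

theorem mul_col {g h : Matrix (Fin m) (Fin m) K} {j : Fin m} (hh : ∀ i, h i j = if i = j then 1 else 0) (i : Fin m) :
    (g * h) i j = g i j := by
  rw [Matrix.mul_apply, Finset.sum_eq_single j]
  · rw [hh, if_pos rfl, mul_one]
  · intro l _ hl; rw [hh, if_neg hl, mul_zero]
  · simp

/-- block unipotent group -/
def AK (m : ℕ) (K : Type*) [Field K] (k : ℕ) : Subgroup (SpecialLinearGroup (Fin m) K) where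
  carrier := {g | (∀ i : Fin m, k ≤ (i : ℕ) → ∀ j, (g : Matrix (Fin m) (Fin m) K) i j = if i = j then 1 else 0) ∧
    (∀ j : Fin m, (j : ℕ) < k → ∀ i, (g : Matrix (Fin m) (Fin m) K) i j = if i = j then 1 else 0)}
  one_mem' := ⟨fun i _ j => by rw [Matrix.SpecialLinearGroup.coe_one, Matrix.one_apply],
    fun j _ i => by rw [Matrix.SpecialLinearGroup.coe_one, Matrix.one_apply]⟩
  mul_mem' := by
    rintro a b ⟨ha, ha'⟩ ⟨hb, hb'⟩
    refine ⟨fun i hi j => ?_, fun j hj i => ?_⟩
    · rw [Matrix.SpecialLinearGroup.coe_mul, row_mul (ha i hi), hb i hi]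
    · rw [Matrix.SpecialLinearGroup.coe_mul, mul_col (hb' j hj), ha' j hj]
  inv_mem' := by
    rintro a ⟨ha, ha'⟩
    refine ⟨fun i hi j => ?_, fun j hj i => ?_⟩
    · have h1 := row_mul (h := ((a⁻¹ : SpecialLinearGroup (Fin m) K) : Matrix (Fin m) (Fin m) K)) (ha i hi) j
      rw [← h1, ← Matrix.SpecialLinearGroup.coe_mul, mul_inv_cancel, Matrix.SpecialLinearGroup.coe_one, Matrix.one_apply]
    · have h1 := mul_col (g := ((a⁻¹ : SpecialLinearGroup (Fin m) K) : Matrix (Fin m) (Fin m) K)) (ha' j hj) i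
      rw [← h1, ← Matrix.SpecialLinearGroup.coe_mul, inv_mul_cancel, Matrix.SpecialLinearGroup.coe_one, Matrix.one_apply]

theorem mem_AK {k : ℕ} {g : SpecialLinearGroup (Fin m) K} : g ∈ AK m K k ↔
    (∀ i : Fin m, k ≤ (i : ℕ) → ∀ j, (g : Matrix (Fin m) (Fin m) K) i j = if i = j then 1 else 0) ∧
    (∀ j : Fin m, (j : ℕ) < k → ∀ i, (g : Matrix (Fin m) (Fin m) K) i j = if i = j then 1 else 0) := Iff.rfl

theorem AK_le_UU (k : ℕ) : AK m K k ≤ UU m K := by
  rintro g ⟨h1, h2⟩
  refine ⟨fun i => ?_, fun i j hij => ?_⟩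
  · rcases lt_or_ge (i : ℕ) k with h | h
    · rw [h2 i h, if_pos rfl]
    · rw [h1 i h, if_pos rfl]
  · rcases lt_or_ge (i : ℕ) k with h | h
    · rw [h2 j (lt_trans (Fin.lt_def.1 hij) h), if_neg hij.ne']
    · rw [h1 i h, if_neg hij.ne']

theorem xe_mem_AK {k : ℕ} {a b : Fin m} (ha : (a : ℕ) < k) (hb : k ≤ (b : ℕ)) (t : K) : xe a b t ∈ AK m K k := by
  have hab : a ≠ b := by rintro rfl; omega
  refine ⟨fun i hi j => ?_, fun j hj i => ?_⟩
  · rw [xe_apply hab, if_neg (c := a = i ∧ b = j), add_zero]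
    rintro ⟨rfl, -⟩; omega
  · rw [xe_apply hab, if_neg (c := a = i ∧ b = j), add_zero]
    rintro ⟨-, rfl⟩; omega

theorem centralizer_AK {p : ℕ} [Fact p.Prime] [CharP K p] {k : ℕ} (hk : 0 < k) (hkm : k < m) :
    Subgroup.centralizer (((AK m K k).map (mkT m K) : Subgroup _) : Set (ProjectiveSpecialLinearGroup (Fin m) K)) ≤
      (AK m K k).map (mkT m K) := by
  intro y hy
  obtain ⟨g, rfl⟩ := mkT_surj y
  rw [Subgroup.mem_centralizer_iff] at hy
  have hcomm : ∀ a b : Fin m, (a : ℕ) < k → k ≤ (b : ℕ) → xe a b 1 * g = g * xe a b 1 := by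
    intro a b ha hb
    refine comm_of_mkT (p := p) (by omega) (n := 1) ?_ (hy _ ⟨xe a b 1, xe_mem_AK ha hb 1, rfl⟩)
    rw [pow_one]; exact xe_pow_p a b 1
  have hent : ∀ a b : Fin m, (a : ℕ) < k → k ≤ (b : ℕ) → ∀ i j : Fin m,
      (if i = a then (g : Matrix (Fin m) (Fin m) K) b j else 0) =
      (if j = b then (g : Matrix (Fin m) (Fin m) K) i a else 0) := by
    intro a b ha hb i j
    have hab : a ≠ b := by rintro rfl; omega
    have h1 := congrArg (fun g : SpecialLinearGroup (Fin m) K => (g : Matrix (Fin m) (Fin m) K) i j) (hcomm a b ha hb)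
    simp only [mul_xe_apply hab, xe_mul_apply hab, mul_one, one_mul] at h1
    simpa using h1
  let b0 : Fin m := ⟨k, hkm⟩
  let a0 : Fin m := ⟨0, by omega⟩
  have hcol : ∀ a i : Fin m, (a : ℕ) < k → i ≠ a → (g : Matrix (Fin m) (Fin m) K) i a = 0 := by
    intro a i ha hia
    have h1 := hent a b0 ha le_rfl i b0
    rw [if_neg hia, if_pos rfl] at h1
    exact h1.symm
  have hrow : ∀ b j : Fin m, k ≤ (b : ℕ) → j ≠ b → (g : Matrix (Fin m) (Fin m) K) b j = 0 := by
    intro b j hb hjb
    have h1 := hent a0 b hk hb a0 j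
    rw [if_neg hjb, if_pos rfl] at h1
    exact h1
  have hdiag : ∀ a b : Fin m, (a : ℕ) < k → k ≤ (b : ℕ) → (g : Matrix (Fin m) (Fin m) K) b b =
      (g : Matrix (Fin m) (Fin m) K) a a := by
    intro a b ha hb
    have h1 := hent a b ha hb a b
    rwa [if_pos rfl, if_pos rfl] at h1
  set r := (g : Matrix (Fin m) (Fin m) K) b0 b0 with hr
  have hd : ∀ i, (g : Matrix (Fin m) (Fin m) K) i i = r := by
    intro i
    rcases lt_or_ge (i : ℕ) k with h | h
    · exact (hdiag i b0 h le_rfl).symm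
    · rw [hdiag a0 i hk h, hr, hdiag a0 b0 hk le_rfl]
  have htri : ∀ i j : Fin m, j < i → (g : Matrix (Fin m) (Fin m) K) i j = 0 := by
    intro i j hij
    rcases lt_or_ge (i : ℕ) k with h | h
    · exact hcol j i (lt_trans (Fin.lt_def.1 hij) h) hij.ne'
    · exact hrow i j h hij.ne
  have hdet : r ^ m = 1 := by
    have := Matrix.SpecialLinearGroup.det_coe g
    rw [Matrix.det_of_isUpperTriangular (fun i j h => htri i j h)] at this
    simpa [hd] using this
  have hr0 : r ≠ 0 := by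
    intro h
    rw [h, zero_pow (by omega)] at hdet
    exact zero_ne_one hdet
  have hdet' : (r⁻¹ • (g : Matrix (Fin m) (Fin m) K)).det = 1 := by
    rw [Matrix.det_smul, Fintype.card_fin, Matrix.SpecialLinearGroup.det_coe, mul_one, inv_pow, hdet, inv_one]
  refine ⟨⟨_, hdet'⟩, ?_, ?_⟩
  · refine ⟨fun i hi j => ?_, fun j hj i => ?_⟩
    · show r⁻¹ * (g : Matrix (Fin m) (Fin m) K) i j = _
      split_ifs with h
      · subst h; rw [hd i, inv_mul_cancel₀ hr0]
      · rw [hrow i j hi (Ne.symm h), mul_zero]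
    · show r⁻¹ * (g : Matrix (Fin m) (Fin m) K) i j = _
      split_ifs with h
      · subst h; rw [hd i, inv_mul_cancel₀ hr0]
      · rw [hcol j i hj h, mul_zero]
  · refine mkT_eq_iff.2 ⟨r, hdet, ?_⟩
    show _ = r • (r⁻¹ • (g : Matrix (Fin m) (Fin m) K))
    rw [smul_smul, mul_inv_cancel₀ hr0, one_smul]

/-- same block -/
def Blk (k : ℕ) (i j : Fin m) : Prop := ((i : ℕ) < k ∧ (j : ℕ) < k) ∨ (k ≤ (i : ℕ) ∧ k ≤ (j : ℕ))

theorem xe_conj_AK {k : ℕ} {i j : Fin m} (hij : i ≠ j) (hb : Blk k i j) (t : K) {x : SpecialLinearGroup (Fin m) K}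
    (hx : x ∈ AK m K k) : xe i j t * x * (xe i j t)⁻¹ ∈ AK m K k := by
  -- x = 1 + M
  rw [xe_inv]
  obtain ⟨h1, h2⟩ := hx
  have e : ∀ a b : Fin m, ((xe i j t * x * xe i j (-t) : SpecialLinearGroup (Fin m) K) : Matrix (Fin m) (Fin m) K) a b =
      (x : Matrix (Fin m) (Fin m) K) a b + (if a = i then t * (x : Matrix (Fin m) (Fin m) K) j b else 0) +
      (if b = j then ((x : Matrix (Fin m) (Fin m) K) a i +
        (if a = i then t * (x : Matrix (Fin m) (Fin m) K) j i else 0)) * (-t) else 0) := by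
    intro a b
    rw [mul_xe_apply hij, xe_mul_apply hij, xe_mul_apply hij]
  refine ⟨fun a ha b => ?_, fun b hb' a => ?_⟩
  · rw [e, h1 a ha b, h1 a ha i]
    by_cases hai : a = i
    · subst hai
      have hj : k ≤ (j : ℕ) := by
        rcases hb with h | h
        · omega
        · exact h.2
      rw [if_pos rfl, if_pos rfl, if_pos rfl, h1 j hj, h1 j hj, if_neg hij.symm]
      by_cases hbj : b = j
      · subst hbj; simp [hij]
      · simp [hbj, Ne.symm hbj]
    · simp [hai]
  · rw [e, h2 b hb' a]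
    by_cases hbj : b = j
    · subst hbj
      have hi : (i : ℕ) < k := by
        rcases hb with h | h
        · exact h.1
        · omega
      rw [if_pos (rfl : b = b), h2 b hb' b, h2 i hi a, h2 i hi b, if_pos rfl, if_neg hij.symm]
      by_cases hai : a = i
      · subst hai; simp [hij]
      · simp [hai]
    · rw [if_neg hbj, add_zero]
      by_cases hai : a = i
      · subst hai
        rw [if_pos rfl, h2 b hb' j, if_neg (Ne.symm hbj), mul_zero, add_zero]
      · rw [if_neg hai, add_zero]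

theorem xe_normalizes {k : ℕ} {i j : Fin m} (hij : i ≠ j) (hb : Blk k i j) (t : K) :
    mkT m K (xe i j t) ∈ Subgroup.normalizer (((AK m K k).map (mkT m K) : Subgroup _) : Set _) := by
  rw [Subgroup.mem_normalizer_iff]
  intro y
  constructor
  · rintro ⟨x, hx, rfl⟩
    exact ⟨_, xe_conj_AK hij hb t hx, by simp⟩
  · rintro ⟨x, hx, h⟩
    refine ⟨_, xe_conj_AK hij hb (-t) hx, ?_⟩
    have h1 : y = (mkT m K (xe i j t))⁻¹ * (mkT m K (xe i j t) * y * (mkT m K (xe i j t))⁻¹) * mkT m K (xe i j t) := by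
      group
    rw [h1, ← h, ← xe_inv]
    simp

theorem diag_mem_closure {p : ℕ} [Fact p.Prime] [CharP K p] {k : ℕ} {i j : Fin m} (hij : i ≠ j) (hb : Blk k i j)
    {c : K} (hc : c ≠ 0) : mkT m K (Matrix.SpecialLinearGroup.diag2n hij c hc) ∈
      Subgroup.closure {x | x ∈ Subgroup.normalizer (((AK m K k).map (mkT m K) : Subgroup _) : Set _) ∧
        ∃ n : ℕ, x ^ p ^ n = 1} := by
  have hb' : Blk k j i := by
    rcases hb with h | h
    · exact Or.inl ⟨h.2, h.1⟩
    · exact Or.inr ⟨h.2, h.1⟩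
  have hx : ∀ (a b : Fin m) (hab : a ≠ b) (_ : Blk k a b) (t : K), mkT m K (xe a b t) ∈
      Subgroup.closure {x | x ∈ Subgroup.normalizer (((AK m K k).map (mkT m K) : Subgroup _) : Set _) ∧
        ∃ n : ℕ, x ^ p ^ n = 1} := by
    intro a b hab hbl t
    apply Subgroup.subset_closure
    refine ⟨xe_normalizes hab hbl t, 1, ?_⟩
    rw [pow_one, ← map_pow, xe_pow_p, map_one]
  rw [diag2n_eq hij hc]
  simp only [map_mul]
  exact Subgroup.mul_mem _ (Subgroup.mul_mem _ (Subgroup.mul_mem _ (hx _ _ hij hb _) (hx _ _ hij.symm hb' _))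
    (hx _ _ hij hb _)) (Subgroup.mul_mem _ (Subgroup.mul_mem _ (hx _ _ hij hb _) (hx _ _ hij.symm hb' _))
    (hx _ _ hij hb _))

theorem mem_normalizer_UT {t : ProjectiveSpecialLinearGroup (Fin m) K} :
    t ∈ Subgroup.normalizer ((UT m K : Subgroup _) : Set _) ↔ t ∈ BT m K := by
  constructor
  · intro h
    exact mem_BT_of_normalizes (fun x hx => (Subgroup.mem_normalizer_iff.1 h x).1 hx)
  · intro h
    rw [Subgroup.mem_normalizer_iff]
    intro x
    constructor
    · exact fun hx => BT_normalizes h hx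
    · intro hx
      have h1 := BT_normalizes ((BT m K).inv_mem h) hx
      have e : t⁻¹ * (t * x * t⁻¹) * t⁻¹⁻¹ = x := by group
      rwa [e] at h1

theorem diag2n_good {p : ℕ} [Fact p.Prime] [CharP K p] (hm : 3 ≤ m) {i j : Fin m} (hij : i ≠ j)
    (hj : (j : ℕ) = 1) {c : K} (hc : c ≠ 0) :
    mkT m K (Matrix.SpecialLinearGroup.diag2n hij c hc) ∈ goodSet p (UT m K) := by
  refine ⟨?_, ?_⟩
  · rw [mem_normalizer_UT, mem_BT_iff, mem_BU]
    intro a b hab
    rw [Matrix.SpecialLinearGroup.diag2n_coe, Matrix.diagonal_apply_ne _ hab.ne']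
  · by_cases hi : (i : ℕ) = 0
    · refine ⟨(AK m K (m - 1)).map (mkT m K), Subgroup.map_mono (AK_le_UU _), centralizer_AK (p := p) (by omega) (by omega),
        diag_mem_closure hij (Or.inl ⟨by omega, by omega⟩) hc⟩
    · refine ⟨(AK m K 1).map (mkT m K), Subgroup.map_mono (AK_le_UU _), centralizer_AK (p := p) (by omega) (by omega),
        diag_mem_closure hij (Or.inr ⟨by omega, by omega⟩) hc⟩

theorem UT_good {p : ℕ} [Fact p.Prime] [CharP K p] (hm : 3 ≤ m) {u : SpecialLinearGroup (Fin m) K} (hu : u ∈ UU m K) :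
    mkT m K u ∈ goodSet p (UT m K) := by
  have h0 : mkT m K u ∈ Subgroup.normalizer ((UT m K : Subgroup _) : Set _) :=
    Subgroup.le_normalizer ⟨u, hu, rfl⟩
  refine ⟨h0, (AK m K 1).map (mkT m K), Subgroup.map_mono (AK_le_UU _), centralizer_AK (p := p) (by omega) (by omega), ?_⟩
  have key : UU m K ≤ (Subgroup.closure {x | x ∈ Subgroup.normalizer (((AK m K 1).map (mkT m K) : Subgroup _) : Set _) ∧
        ∃ n : ℕ, x ^ p ^ n = 1}).comap (mkT m K) := by
    apply UU_gen
    intro i j hij t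
    apply Subgroup.subset_closure
    refine ⟨?_, 1, ?_⟩
    · by_cases hi : (i : ℕ) = 0
      · apply Subgroup.le_normalizer
        exact ⟨_, xe_mem_AK (by omega) (by have := Fin.lt_def.1 hij; omega) t, rfl⟩
      · exact xe_normalizes hij.ne (Or.inr ⟨by omega, by have := Fin.lt_def.1 hij; omega⟩) t
    · rw [pow_one, ← map_pow, xe_pow_p, map_one]
  exact key hu

theorem psl_simple [Finite K] {p : ℕ} [Fact p.Prime] [CharP K p] (hm : 3 ≤ m)
    (S : Sylow p (ProjectiveSpecialLinearGroup (Fin m) K)) :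
    (groupFusionSystem (S : Subgroup (ProjectiveSpecialLinearGroup (Fin m) K))).IsSimple p := by
  obtain ⟨P, hP⟩ := UT_isSylow (F := K) (p := p) (m := m) (by omega)
  have hS : IsSyl p (UT m K) ⊤ := by rw [← hP]; exact isSyl_sylow P
  refine simple_criterion2_all p hS ?_ (strongly_closed_eq (p := p) hm) ?_ S
  · intro h
    have hne : (⟨0, by omega⟩ : Fin m) < ⟨1, by omega⟩ := Fin.lt_def.2 (by simp)
    have h1 : XT ⟨0, by omega⟩ ⟨1, by omega⟩ (1 : K) ∈ UT m K := ⟨_, xe_mem_UU hne 1, rfl⟩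
    rw [h, Subgroup.mem_bot] at h1
    have h2 := XT_injective hne.ne (a₁ := (1 : K)) (a₂ := 0) (by
      show XT _ _ (1 : K) = XT _ _ 0
      rw [h1, XT_zero])
    exact one_ne_zero h2
  · intro g hg
    rw [mem_normalizer_UT] at hg
    obtain ⟨b, hb, rfl⟩ := hg
    have hb' := mem_BU.1 hb
    set D : Fin m → K := fun i => (b : Matrix (Fin m) (Fin m) K) i i with hD
    have hdet : (Matrix.diagonal D).det = 1 := by
      rw [Matrix.det_diagonal]
      have := Matrix.SpecialLinearGroup.det_coe b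
      rwa [Matrix.det_of_isUpperTriangular (fun i j h => hb' i j h)] at this
    set d : SpecialLinearGroup (Fin m) K := ⟨Matrix.diagonal D, hdet⟩ with hd
    have hD0 : ∀ i, D i ≠ 0 := Matrix.SpecialLinearGroup.diagonal_neZero D hdet
    have hdinv : ((d⁻¹ : SpecialLinearGroup (Fin m) K) : Matrix (Fin m) (Fin m) K) = Matrix.diagonal (fun i => (D i)⁻¹) := by
      rw [sl_coe_inv]
      apply Matrix.inv_eq_right_inv
      show Matrix.diagonal D * Matrix.diagonal (fun i => (D i)⁻¹) = 1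
      rw [Matrix.diagonal_mul_diagonal]
      have : (fun i => D i * (D i)⁻¹) = fun _ => 1 := funext fun i => mul_inv_cancel₀ (hD0 i)
      rw [this]; exact Matrix.diagonal_one
    have hu : b * d⁻¹ ∈ UU m K := by
      refine ⟨fun i => ?_, fun i j hij => ?_⟩
      · show ((b * d⁻¹ : Matrix.SpecialLinearGroup (Fin m) K) : Matrix (Fin m) (Fin m) K) i i = 1
        rw [Matrix.SpecialLinearGroup.coe_mul, hdinv, Matrix.mul_diagonal]
        exact mul_inv_cancel₀ (hD0 i)
      · show ((b * d⁻¹ : Matrix.SpecialLinearGroup (Fin m) K) : Matrix (Fin m) (Fin m) K) i j = 0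
        rw [Matrix.SpecialLinearGroup.coe_mul, hdinv, Matrix.mul_diagonal, hb' i j hij, zero_mul]
    have hbe : b = (b * d⁻¹) * d := by group
    rw [hbe, map_mul]
    refine Subgroup.mul_mem _ (Subgroup.subset_closure (UT_good hm hu)) ?_
    have hdd := Matrix.SpecialLinearGroup.diag_eq_diag2n_prod (⟨1, by omega⟩ : Fin m) D hdet
    rw [hd, hdd]
    have key := Finset.noncommProd_induction {i : Fin m | i ≠ ⟨1, by omega⟩}
      (fun i ↦ if hi : i ≠ ⟨1, by omega⟩ then Matrix.SpecialLinearGroup.diag2n hi (D i)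
        (Matrix.SpecialLinearGroup.diagonal_neZero D hdet i) else 1) (Matrix.SpecialLinearGroup.diag_commute _ D hdet)
      (fun x => mkT m K x ∈ Subgroup.closure (goodSet p (UT m K)))
      (fun a b ha hb => by rw [map_mul]; exact Subgroup.mul_mem _ ha hb)
      (by rw [map_one]; exact Subgroup.one_mem _) (fun i hi => by
        have hi' : i ≠ ⟨1, by omega⟩ := (Finset.mem_filter.1 hi).2
        simp only [dif_pos hi']
        exact Subgroup.subset_closure (diag2n_good hm hi' rfl _))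
    exact key

end CfsgH8.PSLf
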