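import Mathlib
import Cfsg.Prelude.Def_AxialAlgebras

set_option autoImplicit false
set_option linter.unusedVariables false

/-! Majorana involutions of pure type 2A: at most four. -/

namespace CfsgH8
open Cfsg Cfsg.Axial

theorem maj_card {V : Type*} [AddCommGroup V] [Module ℝ V] (mul : V →ₗ[ℝ] V →ₗ[ℝ] V) (B : LinearMap.BilinForm ℝ V)
    (X : Subgroup (V ≃ₗ[ℝ] V)) (hX : ∀ x ∈ X, x * x = 1) (ax : (V ≃ₗ[ℝ] V) → V)
    (hax : ∀ x ∈ X, x ≠ 1 → IsMajoranaPair mul B x (ax x)) (h1 : ∀ x ∈ X, x ≠ 1 → B (ax x) (ax x) = 1)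
    (h2A : ∀ x ∈ X, ∀ y ∈ X, x ≠ 1 → y ≠ 1 → x ≠ y → mul (ax x) (ax y) = (1 / 8 : ℝ) • (ax x + ax y - ax (x * y))) :
    Nat.card ↥X ≤ 4 := by
  classical
  by_contra hlt
  push Not at hlt
  have hfin : Finite X := Nat.finite_of_card_ne_zero (by omega)
  have hex : ∀ s : Finset (V ≃ₗ[ℝ] V), s.card ≤ 4 → ∃ w ∈ X, w ∉ s := by
    intro s hs
    by_contra hcon
    push Not at hcon
    have h3 : Nat.card X ≤ s.card := by
      have h4 : Function.Injective (fun w : X => (⟨w, hcon w w.2⟩ : s)) := by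
        intro a b hab
        exact Subtype.ext (congrArg (fun z : s => (z : V ≃ₗ[ℝ] V)) hab)
      have h5 := Nat.card_le_card_of_injective _ h4
      rwa [Nat.card_eq_fintype_card (α := s), Fintype.card_coe] at h5
    omega
  obtain ⟨x, hxX, hx⟩ := hex {1} (by simp)
  obtain ⟨y, hyX, hy⟩ := hex {1, x} ((Finset.card_le_two).trans (by norm_num))
  obtain ⟨w, hwX, hw⟩ := hex {1, x, y, x * y} Finset.card_le_four
  simp only [Finset.mem_insert, Finset.mem_singleton, not_or] at hx hy hw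
  obtain ⟨hy1, hyx⟩ := hy
  obtain ⟨hw1, hwx, hwy, hwxy⟩ := hw
  have hinv : ∀ u ∈ X, u⁻¹ = u := fun u hu => inv_eq_of_mul_eq_one_left (hX u hu)
  have hcomm : ∀ u ∈ X, ∀ v ∈ X, u * v = v * u := by
    intro u hu v hv
    have h3 := hinv _ (X.mul_mem hu hv)
    rw [mul_inv_rev, hinv u hu, hinv v hv] at h3
    exact h3.symm
  have hxx : ∀ u, x * (x * u) = u := fun u => by rw [← mul_assoc, hX x hxX, one_mul]
  have hne1 : ∀ u ∈ X, ∀ v ∈ X, u ≠ v → u * v ≠ 1 := by
    intro u hu v hv huv h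
    apply huv
    have := eq_inv_of_mul_eq_one_left h
    rw [this, hinv v hv]
  -- the `1/4`-eigenvectors
  have heig : ∀ u ∈ X, u ≠ 1 → u ≠ x → mul (ax x) (ax u - ax (x * u)) = (1 / 4 : ℝ) • (ax u - ax (x * u)) := by
    intro u hu hu1 hux
    have e1 := h2A x hxX u hu hx hu1 (Ne.symm hux)
    have e2 := h2A x hxX (x * u) (X.mul_mem hxX hu) hx (hne1 x hxX u hu (Ne.symm hux)) (fun h => hu1 (by
      have : x * 1 = x * u := by rw [mul_one]; exact h
      exact (mul_left_cancel this).symm))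
    rw [hxx] at e2
    rw [map_sub, e1, e2]
    module
  have hmemq : ∀ u ∈ X, u ≠ 1 → u ≠ x → ax u - ax (x * u) ∈ eigen mul (ax x) (1 / 4) := by
    intro u hu hu1 hux
    rw [eigen, Module.End.mem_eigenspace_iff]
    exact heig u hu hu1 hux
  have hyw : y * w ≠ 1 := hne1 y hyX w hwX (Ne.symm hwy)
  have hywx : y * w ≠ x := by
    intro h
    apply hwxy
    have : y * (y * w) = y * x := by rw [h]
    rw [← mul_assoc, hX y hyX, one_mul] at this
    rw [this, hcomm y hyX x hxX]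
  have hprod : mul (ax y - ax (x * y)) (ax w - ax (x * w)) = (-(1 / 4) : ℝ) • (ax (y * w) - ax (x * (y * w))) := by
    have hxyX := X.mul_mem hxX hyX
    have hxwX := X.mul_mem hxX hwX
    have hxy1 : x * y ≠ 1 := hne1 x hxX y hyX (Ne.symm hyx)
    have hxw1 : x * w ≠ 1 := hne1 x hxX w hwX (Ne.symm hwx)
    have e1 := h2A y hyX w hwX hy1 hw1 (Ne.symm hwy)
    have e2 := h2A y hyX (x * w) hxwX hy1 hxw1 (fun h => hwxy (by rw [h, hxx]))
    have e3 := h2A (x * y) hxyX w hwX hxy1 hw1 (Ne.symm hwxy)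
    have e4 := h2A (x * y) hxyX (x * w) hxwX hxy1 hxw1 (fun h => hwy (mul_left_cancel h).symm)
    have f2 : y * (x * w) = x * (y * w) := by rw [← mul_assoc, hcomm y hyX x hxX, mul_assoc]
    have f4 : x * y * (x * w) = y * w := by rw [mul_assoc, f2, hxx]
    rw [f2] at e2
    rw [mul_assoc] at e3
    rw [f4] at e4
    rw [map_sub, map_sub, LinearMap.sub_apply, LinearMap.sub_apply, e1, e2, e3, e4]
    module
  obtain ⟨-, -, hprim, -⟩ := hax x hxX hx
  obtain ⟨⟨-, -, -, hfus⟩, -⟩ := hprim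
  have hq : (1 / 4 : ℝ) ∈ majoranaSpectrum := by
    unfold majoranaSpectrum
    simp
  have h5 := hfus _ hq _ hq _ (hmemq y hyX hy1 hyx) _ (hmemq w hwX hw1 hwx)
  have hlaw : monsterLaw (1 / 4 : ℝ) (1 / 32) (1 / 4) (1 / 4) = {1, 0} := by
    unfold monsterLaw
    rw [if_neg (by norm_num), if_neg (by norm_num), if_pos (by norm_num)]
  rw [hlaw, hprod] at h5
  set v := ax (y * w) - ax (x * (y * w)) with hv
  have hvq : v ∈ eigen mul (ax x) (1 / 4) := hmemq _ (X.mul_mem hyX hwX) hyw hywx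
  have hv0 : v = 0 := by
    have h6 : v ∈ eigenSum mul (ax x) {1, 0} := by
      have := Submodule.smul_mem _ (-4 : ℝ) h5
      rw [smul_smul] at this
      norm_num at this
      exact this
    have hind := Module.End.eigenspaces_iSupIndep (mul (ax x))
    have hdis := hind (1 / 4 : ℝ)
    have hle : eigenSum mul (ax x) {1, 0} ≤ ⨆ (j : ℝ) (_ : j ≠ 1 / 4), Module.End.eigenspace (mul (ax x)) j := by
      refine iSup₂_le fun c hc => ?_
      have hc' : c ≠ 1 / 4 := by
        rcases hc with rfl | hc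
        · norm_num
        · rw [Set.mem_singleton_iff] at hc
          rw [hc]; norm_num
      exact le_iSup₂ (f := fun (j : ℝ) (_ : j ≠ 1 / 4) => Module.End.eigenspace (mul (ax x)) j) c hc'
    exact Submodule.disjoint_def.1 hdis v hvq (hle h6)
  -- contradiction
  have hywX := X.mul_mem hyX hwX
  have hxyw1 : x * (y * w) ≠ 1 := hne1 x hxX _ hywX (Ne.symm hywx)
  have hfg : ax (x * (y * w)) = ax (y * w) := (sub_eq_zero.1 hv0).symm
  have e5 := h2A x hxX (y * w) hywX hx hyw (Ne.symm hywx)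
  rw [hfg] at e5
  have e6 := h2A (y * w) hywX (x * (y * w)) (X.mul_mem hxX hywX) hyw hxyw1 (fun h => hx (by
    have : 1 * (y * w) = x * (y * w) := by rw [one_mul]; exact h
    exact (mul_right_cancel this).symm))
  have f6 : y * w * (x * (y * w)) = x := by
    rw [hcomm (y * w) hywX _ (X.mul_mem hxX hywX), mul_assoc, hX _ hywX, mul_one]
  obtain ⟨-, -, ⟨⟨-, hid, -⟩, -⟩, -⟩ := hax (y * w) hywX hyw
  rw [hfg, f6, hid] at e6
  have e7 : ax x = (-6 : ℝ) • ax (y * w) := by
    have : (8 : ℝ) • ax (y * w) = ax (y * w) + ax (y * w) - ax x := by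
      conv_lhs => rw [e6]
      rw [smul_smul]; norm_num
    have h8 : ax x = ax (y * w) + ax (y * w) - (8 : ℝ) • ax (y * w) := by rw [this]; abel
    rw [h8]; module
  have h9 := h1 x hxX hx
  rw [e7] at h9
  have h10 := h1 _ hywX hyw
  simp only [map_smul, LinearMap.smul_apply, smul_eq_mul, h10] at h9
  norm_num at h9

end CfsgH8
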