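import Cfsg.Agent.H8.Tower
import Cfsg.Agent.H8.FusSimple
import Cfsg.Agent.H4.PGrp

set_option autoImplicit false
set_option linter.unusedSectionVars false
set_option linter.unusedVariables false

/-! Checker for simplicity of 2-fusion systems of permutation groups on the 24 points. -/

namespace CfsgH8.Mat
open Cfsg CfsgL.Comp CfsgL.Golay

/-- the permutations in `l` commute -/
def commOK (P Q : ℕ) : Bool := allR (fun i => Nat.beq (papp P (papp Q i)) (papp Q (papp P i))) 24

/-- elements of `E` commuting with all generators are `1` or `z` -/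
def centerOK (E : List ℕ) (gens : List (ℕ × ℕ)) (z : ℕ) : Bool :=
  E.all (fun P => (Nat.beq P pone || Nat.beq P z) || !(gens.all (fun x => commOK P x.1)))

/-- program steps: `(0, i, j)` push `K_i K_j`, `(1, i, k)`: push `c_k K_i c_k⁻¹` -/
def prStep (E : List ℕ) (C : List (ℕ × ℕ)) (K : List ℕ) (s : ℕ × ℕ × ℕ) : List ℕ :=
  force (cond (Nat.beq s.1 0) (pmul (K.getD s.2.1 pone) (K.getD s.2.2 pone))
    (pmul (pmul (C.getD s.2.2 (pone, pone)).1 (K.getD s.2.1 pone)) (C.getD s.2.2 (pone, pone)).2))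
    (fun P => cond (mem E P) (P :: K) K)

theorem commOK_of_comm {g h : Equiv.Perm GolayPt} {P Q : ℕ} (hg : Agrees g P) (hh : Agrees h Q)
    (h1 : g * h = h * g) : commOK P Q = true := by
  unfold commOK
  rw [allR_iff]
  intro i hi
  rw [natBeq_iff, ← hh i hi, ← hg i hi, ← hg.apply, ← hh.apply]
  have := congrArg (fun e => toIdx (e (ofIdx i))) h1
  simpa using this

theorem center_sound {l : List (ℕ × ℕ)} {E : List ℕ} {H : Subgroup (Equiv.Perm GolayPt)} (hT : Twr l E H)
    {z : ℕ} (h : centerOK E l z = true) {g : Equiv.Perm GolayPt} (hg : g ∈ H) (hc : ∀ x ∈ H, g * x = x * g)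
    (hg1 : g ≠ 1) : Agrees g z := by
  obtain ⟨P, hP, hPA⟩ := (hT.rep g).1 hg
  unfold centerOK at h
  rw [List.all_eq_true] at h
  have h1 := h P hP
  rw [Bool.or_eq_true, Bool.or_eq_true, natBeq_iff, natBeq_iff, Bool.not_eq_true'] at h1
  rcases h1 with (h1 | h1) | h1
  · exfalso; apply hg1; rw [h1] at hPA; exact perm_eq_of_agrees hPA agrees_one
  · rwa [h1] at hPA
  · exfalso
    have : l.all (fun x => commOK P x.1) = true := by
      rw [List.all_eq_true]
      intro x hx
      obtain ⟨k, hk, hkA⟩ := hT.gens x hx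
      exact commOK_of_comm hPA hkA (hc k hk)
    rw [this] at h1
    exact Bool.noConfusion h1

/-- all conjugators are in `G` -/
def conjOK (memG : ℕ → Bool) (C : List (ℕ × ℕ)) : Bool := C.all (fun c => permOK c.1 c.2 && memG c.1)

theorem prStep_sound {l : List (ℕ × ℕ)} {E : List ℕ} {H G T : Subgroup (Equiv.Perm GolayPt)} (hT : Twr l E H)
    {memG : ℕ → Bool} (hmem : ∀ P Q (h : permOK P Q = true), memG P = true → toPerm P Q h ∈ G)
    {C : List (ℕ × ℕ)} (hC : conjOK memG C = true)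
    (hTS : ∀ x ∈ T, ∀ g ∈ G, g * x * g⁻¹ ∈ H → g * x * g⁻¹ ∈ T) {K : List ℕ} (hK : ∀ P ∈ K, InH T P)
    (s : ℕ × ℕ × ℕ) : ∀ P ∈ prStep E C K s, InH T P := by
  unfold prStep
  rw [force_eq]
  set X := cond (Nat.beq s.1 0) (pmul (K.getD s.2.1 pone) (K.getD s.2.2 pone))
    (pmul (pmul (C.getD s.2.2 (pone, pone)).1 (K.getD s.2.1 pone)) (C.getD s.2.2 (pone, pone)).2) with hX
  cases hm : mem E X with
  | false => simpa using hK
  | true =>
    rw [cond_true]
    intro P hP
    rcases List.mem_cons.1 hP with hPX | hP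
    · rw [hPX]
      obtain ⟨g1, hg1, h1⟩ := inH_getD hK s.2.1
      cases h0 : Nat.beq s.1 0 with
      | true =>
        obtain ⟨g2, hg2, h2⟩ := inH_getD hK s.2.2
        rw [h0, cond_true] at hX
        rw [hX]
        exact ⟨g1 * g2, T.mul_mem hg1 hg2, h1.mul h2⟩
      | false =>
        rw [h0, cond_false] at hX
        have hc : permOK (C.getD s.2.2 (pone, pone)).1 (C.getD s.2.2 (pone, pone)).2 = true ∧
            (memG (C.getD s.2.2 (pone, pone)).1 = true ∨ (C.getD s.2.2 (pone, pone)).1 = pone) := by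
          by_cases hi : s.2.2 < C.length
          · rw [List.getD_eq_getElem _ _ hi]
            have := (List.all_eq_true.1 hC) _ (List.getElem_mem hi)
            rw [Bool.and_eq_true] at this
            exact ⟨this.1, Or.inl this.2⟩
          · rw [List.getD_eq_default _ _ (by omega)]
            exact ⟨by decide +kernel, Or.inr rfl⟩
        have hcG : toPerm _ _ hc.1 ∈ G := by
          rcases hc.2 with h | h
          · exact hmem _ _ _ h
          · have h2 : toPerm _ _ hc.1 = 1 := perm_eq_of_agrees (agrees_toPerm hc.1) (by rw [h]; exact agrees_one)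
            rw [h2]; exact G.one_mem
        have hA := ((agrees_toPerm hc.1).mul h1).mul (agrees_toPerm_inv hc.1)
        rw [← hX] at hA
        refine ⟨_, hTS g1 hg1 _ hcG ?_, hA⟩
        exact (hT.rep _).2 ⟨X, mem_iff.1 hm, hA⟩
    · exact hK P hP

theorem pr_sound {l : List (ℕ × ℕ)} {E : List ℕ} {H G T : Subgroup (Equiv.Perm GolayPt)} (hT : Twr l E H)
    {memG : ℕ → Bool} (hmem : ∀ P Q (h : permOK P Q = true), memG P = true → toPerm P Q h ∈ G)
    {C : List (ℕ × ℕ)} (hC : conjOK memG C = true)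
    (hTS : ∀ x ∈ T, ∀ g ∈ G, g * x * g⁻¹ ∈ H → g * x * g⁻¹ ∈ T) (pr : List (ℕ × ℕ × ℕ)) {K : List ℕ}
    (hK : ∀ P ∈ K, InH T P) : ∀ P ∈ pr.foldl (prStep E C) K, InH T P := by
  induction pr generalizing K with
  | nil => exact hK
  | cons s pr ih => exact ih (prStep_sound hT hmem hC hTS hK s)

/-- the program ends with all generators known -/
def genOK (l : List (ℕ × ℕ)) (K : List ℕ) : Bool := l.all (fun x => mem K x.1)

/-! ### the normalizer chain -/

/-- elements fixing the listed points -/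
def fixE (E : List ℕ) (F : List ℕ) : List ℕ := E.filter (fun P => F.all (fun b => Nat.beq (papp P b) b))

/-- orbit mask -/
def orbM (EF : List ℕ) (q : ℕ) : ℕ :=
  EF.foldl (fun m P => force (Nat.lor m (Nat.shiftLeft 1 (papp P q))) (fun x => x)) 0

/-- subgroup of elements of `H` fixing the listed points -/
def fixS (H : Subgroup (Equiv.Perm GolayPt)) (F : List ℕ) : Subgroup (Equiv.Perm GolayPt) where
  carrier := {g | g ∈ H ∧ ∀ b ∈ F, g (ofIdx b) = ofIdx b}
  one_mem' := ⟨H.one_mem, fun _ _ => rfl⟩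
  mul_mem' := by
    rintro g h ⟨hg, hg'⟩ ⟨hh, hh'⟩
    refine ⟨H.mul_mem hg hh, fun p hp => ?_⟩
    rw [Equiv.Perm.mul_apply, hh' p hp, hg' p hp]
  inv_mem' := by
    rintro g ⟨hg, hg'⟩
    refine ⟨H.inv_mem hg, fun p hp => ?_⟩
    rw [Equiv.Perm.inv_eq_iff_eq]
    exact (hg' p hp).symm

theorem mem_fixS {H : Subgroup (Equiv.Perm GolayPt)} {F : List ℕ} {g : Equiv.Perm GolayPt} :
    g ∈ fixS H F ↔ g ∈ H ∧ ∀ b ∈ F, g (ofIdx b) = ofIdx b := Iff.rfl

theorem fixS_rep {l : List (ℕ × ℕ)} {E : List ℕ} {H : Subgroup (Equiv.Perm GolayPt)} (hT : Twr l E H)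
    {F : List ℕ} (hF : ∀ b ∈ F, b < 24) (g : Equiv.Perm GolayPt) :
    g ∈ fixS H F ↔ ∃ P ∈ fixE E F, Agrees g P := by
  rw [mem_fixS, hT.rep]
  constructor
  · rintro ⟨⟨P, hP, hA⟩, h⟩
    refine ⟨P, ?_, hA⟩
    rw [fixE, List.mem_filter]
    refine ⟨hP, ?_⟩
    rw [List.all_eq_true]
    intro b hb
    rw [natBeq_iff, ← hA b (hF b hb), h b hb, toIdx_ofIdx (hF b hb)]
  · rintro ⟨P, hP, hA⟩
    rw [fixE, List.mem_filter, List.all_eq_true] at hP
    refine ⟨⟨P, hP.1, hA⟩, fun b hb => ?_⟩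
    have := hP.2 b hb
    rw [natBeq_iff, ← hA b (hF b hb)] at this
    rw [← toIdx_inj, this, toIdx_ofIdx (hF b hb)]

theorem fixE_ex {l : List (ℕ × ℕ)} {E : List ℕ} {H : Subgroup (Equiv.Perm GolayPt)} (hT : Twr l E H)
    {F : List ℕ} (hF : ∀ b ∈ F, b < 24) {P : ℕ} (hP : P ∈ fixE E F) : ∃ g ∈ fixS H F, Agrees g P := by
  have hPE : P ∈ E := (List.mem_filter.1 hP).1
  obtain ⟨g, hg, hA⟩ := hT.ex P hPE
  exact ⟨g, (fixS_rep hT hF g).2 ⟨P, hP, hA⟩, hA⟩

theorem orbM_aux (EF : List ℕ) (q : ℕ) (m j : ℕ) :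
    Nat.testBit (EF.foldl (fun m P => force (Nat.lor m (Nat.shiftLeft 1 (papp P q))) (fun x => x)) m) j = true ↔
    Nat.testBit m j = true ∨ ∃ P ∈ EF, papp P q = j := by
  induction EF generalizing m with
  | nil => simp
  | cons P EF ih =>
    rw [List.foldl_cons, ih, force_eq]
    have e : Nat.testBit (Nat.lor m (Nat.shiftLeft 1 (papp P q))) j =
        (Nat.testBit m j || Nat.testBit (1 <<< papp P q) j) := Nat.testBit_or _ _ _
    rw [e, Bool.or_eq_true, Nat.testBit_shiftLeft]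
    have e2 : (decide (papp P q ≤ j) && Nat.testBit 1 (j - papp P q)) = true ↔ papp P q = j := by
      rw [Bool.and_eq_true, decide_eq_true_eq, Nat.testBit_one_eq_true_iff_self_eq_zero]
      omega
    simp only [ge_iff_le] at *
    rw [e2]
    simp only [List.mem_cons, exists_eq_or_imp]
    tauto

theorem orbM_orbit {l : List (ℕ × ℕ)} {E : List ℕ} {H : Subgroup (Equiv.Perm GolayPt)} (hT : Twr l E H)
    {F : List ℕ} (hF : ∀ b ∈ F, b < 24) {q : ℕ} (hq : q < 24) :
    MulAction.orbit (fixS H F) (ofIdx q) = (mset (orbM (fixE E F) q) : Set GolayPt) := by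
  ext p
  rw [MulAction.mem_orbit_iff, Finset.mem_coe, mem_mset, orbM, orbM_aux]
  simp only [Nat.zero_testBit, Bool.false_eq_true, false_or]
  constructor
  · rintro ⟨⟨g, hg⟩, rfl⟩
    obtain ⟨P, hP, hA⟩ := (fixS_rep hT hF g).1 hg
    exact ⟨P, hP, (hA q hq).symm⟩
  · rintro ⟨P, hP, h⟩
    obtain ⟨g, hg, hA⟩ := fixE_ex hT hF hP
    refine ⟨⟨g, hg⟩, ?_⟩
    rw [← toIdx_inj, ← h, ← hA q hq]
    rfl

/-- orbit size -/
def osz (EF : List ℕ) (q : ℕ) : ℕ := pop24 (orbM EF q)

theorem osz_eq {l : List (ℕ × ℕ)} {E : List ℕ} {H : Subgroup (Equiv.Perm GolayPt)} (hT : Twr l E H)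
    {F : List ℕ} (hF : ∀ b ∈ F, b < 24) {q : ℕ} (hq : q < 24) :
    (MulAction.orbit (fixS H F) (ofIdx q)).ncard = osz (fixE E F) q := by
  rw [orbM_orbit hT hF hq, Set.ncard_coe_finset, card_mset]
  rfl

/-- the normalizer of `H` in `G` -/
def NG (G H : Subgroup (Equiv.Perm GolayPt)) : Subgroup (Equiv.Perm GolayPt) :=
  G ⊓ Subgroup.normalizer (H : Set (Equiv.Perm GolayPt))

/-- conjugation invariance of orbit sizes -/
theorem orbit_conj {G H : Subgroup (Equiv.Perm GolayPt)} {F F' : List ℕ} (hF' : ∀ b ∈ F', b ∈ F)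
    {g : Equiv.Perm GolayPt} (hg : g ∈ fixS (NG G H) F) (p : GolayPt) :
    MulAction.orbit (fixS H F') (g p) = g '' MulAction.orbit (fixS H F') p := by
  have hgn : g ∈ Subgroup.normalizer (H : Set (Equiv.Perm GolayPt)) := hg.1.2
  rw [Subgroup.mem_normalizer_iff] at hgn
  have hgF : ∀ b ∈ F', g (ofIdx b) = ofIdx b := fun b hb => hg.2 b (hF' b hb)
  have hgF' : ∀ b ∈ F', g⁻¹ (ofIdx b) = ofIdx b := fun b hb => by
    rw [Equiv.Perm.inv_eq_iff_eq]; exact (hgF b hb).symm
  ext q
  rw [MulAction.mem_orbit_iff]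
  constructor
  · rintro ⟨⟨h, hh⟩, rfl⟩
    refine ⟨(g⁻¹ * h * g) p, ?_, ?_⟩
    · have hm : g⁻¹ * h * g ∈ fixS H F' := by
        refine ⟨?_, fun b hb => ?_⟩
        · have := (hgn (g⁻¹ * h * g)).2 (by
            have e : g * (g⁻¹ * h * g) * g⁻¹ = h := by group
            rw [e]; exact hh.1)
          exact this
        · rw [Equiv.Perm.mul_apply, Equiv.Perm.mul_apply, hgF b hb, hh.2 b hb, hgF' b hb]
      exact ⟨⟨_, hm⟩, rfl⟩
    · show g (g⁻¹ (h (g p))) = h (g p)
      simp
  · rintro ⟨_, ⟨⟨h, hh⟩, rfl⟩, rfl⟩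
    have hm : g * h * g⁻¹ ∈ fixS H F' := by
      refine ⟨(hgn h).1 hh.1, fun b hb => ?_⟩
      rw [Equiv.Perm.mul_apply, Equiv.Perm.mul_apply, hgF' b hb, hh.2 b hb, hgF b hb]
    refine ⟨⟨_, hm⟩, ?_⟩
    show (g * h * g⁻¹) (g p) = g (h p)
    simp

theorem ncard_orbit_conj {G H : Subgroup (Equiv.Perm GolayPt)} {F F' : List ℕ} (hF' : ∀ b ∈ F', b ∈ F)
    {g : Equiv.Perm GolayPt} (hg : g ∈ fixS (NG G H) F) (p : GolayPt) :
    (MulAction.orbit (fixS H F') (g p)).ncard = (MulAction.orbit (fixS H F') p).ncard := by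
  rw [orbit_conj hF' hg, Set.ncard_image_of_injective _ g.injective]

/-- the same colour -/
def sameCol (E : List ℕ) (EF : List ℕ) (subs : List (List ℕ × List ℕ)) (b q : ℕ) : Bool :=
  Nat.beq (osz EF q) (osz EF b) && subs.all (fun s => Nat.beq (osz s.2 q) (osz s.2 b))

/-- the mask of points of the same colour -/
def colM (E : List ℕ) (F : List ℕ) (EF : List ℕ) (subs : List (List ℕ × List ℕ)) (b : ℕ) : ℕ :=
  Nat.rec (motive := fun _ => ℕ) 0 (fun q ih => Nat.lor ih
    (Nat.shiftLeft (Bool.toNat (!(mem F q) && sameCol E EF subs b q)) q)) 24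

/-- one level -/
def lvlOK (E : List ℕ) (F : List ℕ) (EF : List ℕ) (subs : List (List ℕ × List ℕ)) (b : ℕ) : Bool :=
  (Nat.ble b 23 && !(mem F b)) && (leq EF (fixE E F) &&
    (subs.all (fun s => s.1.all (fun x => mem F x) && leq s.2 (fixE E s.1)) &&
     Nat.ble (pop24 (colM E F EF subs b)) (Nat.mul 2 (osz EF b))))

/-- all levels -/
def lvls (E : List ℕ) (cert : List (ℕ × ℕ)) : List ℕ → List (ℕ × List ℕ × List (List ℕ × List ℕ)) → Bool
  | F, [] => Nat.beq (cert.foldl fixStep (F.foldl (fun m b => Nat.lor m (Nat.shiftLeft 1 b)) 0)) 0xffffff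
  | F, x :: r => lvlOK E F x.2.1 x.2.2 x.1 && lvls E cert (x.1 :: F) r

theorem foldmask (F : List ℕ) (m j : ℕ) :
    Nat.testBit (F.foldl (fun m b => Nat.lor m (Nat.shiftLeft 1 b)) m) j = true ↔
      Nat.testBit m j = true ∨ j ∈ F := by
  induction F generalizing m with
  | nil => simp
  | cons P EF ih =>
    rw [List.foldl_cons, ih]
    have e : Nat.testBit (Nat.lor m (Nat.shiftLeft 1 P)) j =
        (Nat.testBit m j || Nat.testBit (1 <<< P) j) := Nat.testBit_or _ _ _
    rw [e, Bool.or_eq_true, Nat.testBit_shiftLeft]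
    have e2 : (decide (P ≤ j) && Nat.testBit 1 (j - P)) = true ↔ j = P := by
      rw [Bool.and_eq_true, decide_eq_true_eq, Nat.testBit_one_eq_true_iff_self_eq_zero]
      omega
    simp only [ge_iff_le] at *
    rw [e2, List.mem_cons]
    tauto

theorem testBit_colM_aux (f : ℕ → Bool) (k j : ℕ) :
    Nat.testBit (Nat.rec (motive := fun _ => ℕ) 0 (fun q ih => Nat.lor ih
      (Nat.shiftLeft (Bool.toNat (f q)) q)) k) j = true ↔ j < k ∧ f j = true := by
  induction k with
  | zero => simp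
  | succ k ih =>
    simp only
    have e : ∀ a b : ℕ, Nat.testBit (Nat.lor a b) j = (Nat.testBit a j || Nat.testBit b j) :=
      fun a b => Nat.testBit_or a b j
    rw [e, Bool.or_eq_true, ih]
    have e2 : Nat.testBit (Nat.shiftLeft (Bool.toNat (f k)) k) j = true ↔ (j = k ∧ f k = true) := by
      change Nat.testBit ((f k).toNat <<< k) j = true ↔ _
      rw [Nat.testBit_shiftLeft]
      cases f k
      · simp
      · simp only [Bool.toNat_true, ge_iff_le, Bool.and_eq_true, decide_eq_true_eq, and_true]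
        rw [Nat.testBit_one_eq_true_iff_self_eq_zero]
        omega
    rw [e2]
    constructor
    · rintro (⟨h1, h2⟩ | ⟨rfl, h⟩)
      · exact ⟨by omega, h2⟩
      · exact ⟨by omega, h⟩
    · rintro ⟨h1, h2⟩
      rcases Nat.lt_succ_iff_lt_or_eq.1 h1 with h | rfl
      · exact Or.inl ⟨h, h2⟩
      · exact Or.inr ⟨rfl, h2⟩

theorem lvls_sound {l : List (ℕ × ℕ)} {E : List ℕ} {H G : Subgroup (Equiv.Perm GolayPt)} (hT : Twr l E H)
    (hG : G ≤ M24) (hHG : H ≤ G) (cert : List (ℕ × ℕ)) (r : List (ℕ × List ℕ × List (List ℕ × List ℕ))) :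
    ∀ F : List ℕ, (∀ b ∈ F, b < 24) → lvls E cert F r = true → ∃ k, Nat.card (fixS (NG G H) F) = 2 ^ k := by
  induction r with
  | nil =>
    intro F hF h
    rw [lvls, natBeq_iff] at h
    refine ⟨0, ?_⟩
    rw [pow_zero]
    have : fixS (NG G H) F = ⊥ := by
      rw [eq_bot_iff]
      intro g hg
      rw [Subgroup.mem_bot]
      refine eq_one_of_closure (hG hg.1.1) cert ?_ h
      intro p hp
      rw [mem_mset, foldmask] at hp
      simp only [Nat.zero_testBit, Bool.false_eq_true, false_or] at hp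
      have := hg.2 _ hp
      rwa [ofIdx_toIdx] at this
    rw [this]; simp
  | cons x r ih =>
    intro F hF h
    rw [lvls, Bool.and_eq_true] at h
    obtain ⟨hl, hr⟩ := h
    obtain ⟨b, EF, subs⟩ := x
    simp only at hl hr
    unfold lvlOK at hl
    simp only [Bool.and_eq_true, natBle_iff, leq_iff, Bool.not_eq_true', List.all_eq_true, mem_iff] at hl
    obtain ⟨⟨hb, hbF⟩, hEF, hsubs, hcnt⟩ := hl
    have hb' : b < 24 := by omega
    have hF' : ∀ c ∈ b :: F, c < 24 := by
      intro c hc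
      rcases List.mem_cons.1 hc with rfl | hc
      · exact hb'
      · exact hF c hc
    obtain ⟨k, hk⟩ := ih (b :: F) hF' hr
    subst hEF
    set N := fixS (NG G H) F with hN
    have hcard := card_eq_orbit_mul N (ofIdx b)
    have hst : N ⊓ MulAction.stabilizer (Equiv.Perm GolayPt) (ofIdx b) = fixS (NG G H) (b :: F) := by
      ext g
      rw [Subgroup.mem_inf, MulAction.mem_stabilizer_iff, hN, mem_fixS, mem_fixS]
      constructor
      · rintro ⟨⟨h1, h2⟩, h3⟩
        refine ⟨h1, fun c hc => ?_⟩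
        rcases List.mem_cons.1 hc with rfl | hc
        · exact h3
        · exact h2 c hc
      · rintro ⟨h1, h2⟩
        exact ⟨⟨h1, fun c hc => h2 c (List.mem_cons_of_mem _ hc)⟩, h2 b List.mem_cons_self⟩
    rw [hst, hk] at hcard
    -- orbits
    have hSN : fixS H F ≤ N := by
      intro g hg
      refine ⟨⟨hHG hg.1, Subgroup.le_normalizer hg.1⟩, hg.2⟩
    have hm := osz_eq hT hF hb'
    set m := osz (fixE E F) b with hmdef
    have hO'O : MulAction.orbit (fixS H F) (ofIdx b) ⊆ MulAction.orbit N (ofIdx b) := by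
      rintro _ ⟨⟨g, hg⟩, rfl⟩
      exact ⟨⟨g, hSN hg⟩, rfl⟩
    -- the orbit is in the colour class
    have hOU : MulAction.orbit N (ofIdx b) ⊆ (mset (colM E F (fixE E F) subs b) : Set GolayPt) := by
      rintro _ ⟨⟨g, hg⟩, rfl⟩
      rw [Finset.mem_coe, mem_mset, colM, testBit_colM_aux]
      refine ⟨toIdx_lt _, ?_⟩
      have hgb : (⟨g, hg⟩ : N) • (ofIdx b : GolayPt) = g (ofIdx b) := rfl
      show (!(mem F (toIdx (g (ofIdx b)))) && sameCol E (fixE E F) subs b (toIdx (g (ofIdx b)))) = true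
      rw [Bool.and_eq_true, Bool.not_eq_true']
      constructor
      · by_contra hc
        rw [Bool.not_eq_false, mem_iff] at hc
        have h1 := hg.2 _ hc
        rw [ofIdx_toIdx] at h1
        have h2 : g (ofIdx b) = ofIdx b := g.injective h1
        rw [h2, toIdx_ofIdx hb'] at hc
        rw [mem_iff.2 hc] at hbF
        exact Bool.noConfusion hbF
      · unfold sameCol
        rw [Bool.and_eq_true, natBeq_iff, List.all_eq_true]
        constructor
        · rw [← osz_eq hT hF (toIdx_lt _), ← osz_eq hT hF hb', ofIdx_toIdx]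
          exact ncard_orbit_conj (fun c hc => hc) hg _
        · intro s hs
          obtain ⟨h1, h2⟩ := hsubs s hs
          have hFs : ∀ c ∈ s.1, c < 24 := fun c hc => hF c (h1 c hc)
          rw [natBeq_iff, h2, ← osz_eq hT hFs (toIdx_lt _), ← osz_eq hT hFs hb', ofIdx_toIdx]
          exact ncard_orbit_conj h1 hg _
    have hfin : ∀ s : Set GolayPt, s.Finite := fun s => Set.toFinite s
    have hUle : (MulAction.orbit N (ofIdx b)).ncard ≤ 2 * m := by
      refine (Set.ncard_le_ncard hOU (hfin _)).trans ?_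
      rw [Set.ncard_coe_finset, card_mset]
      exact hcnt
    -- m is a power of 2
    have hm2 : ∃ j, m = 2 ^ j := by
      have h1 : m ∣ 2 ^ l.length := by
        rw [← hm, ← hT.card]
        have h2 := card_eq_orbit_mul (fixS H F) (ofIdx b)
        have h3 : fixS H F ≤ H := fun g hg => hg.1
        exact (Dvd.intro _ h2.symm).trans (Subgroup.card_dvd_of_le h3)
      obtain ⟨j, -, hj⟩ := (Nat.dvd_prime_pow Nat.prime_two).1 h1
      exact ⟨j, hj⟩
    obtain ⟨j, hj⟩ := hm2
    by_cases heq : MulAction.orbit (fixS H F) (ofIdx b) = MulAction.orbit N (ofIdx b)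
    · refine ⟨j + k, ?_⟩
      rw [hcard, ← heq, hm, hj, pow_add]
    · obtain ⟨c, hcO, hcO'⟩ : ∃ c ∈ MulAction.orbit N (ofIdx b), c ∉ MulAction.orbit (fixS H F) (ofIdx b) := by
        by_contra hne
        push Not at hne
        exact heq (Set.Subset.antisymm hO'O hne)
      obtain ⟨⟨g, hg⟩, rfl⟩ := hcO
      have hgb : (⟨g, hg⟩ : N) • (ofIdx b : GolayPt) = g (ofIdx b) := rfl
      simp only [hgb] at hcO' 
      have hsub : MulAction.orbit (fixS H F) (g (ofIdx b)) ⊆ MulAction.orbit N (ofIdx b) := by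
        rintro _ ⟨⟨h, hh⟩, rfl⟩
        exact ⟨⟨h * g, N.mul_mem (hSN hh) hg⟩, rfl⟩
      have hdisj : Disjoint (MulAction.orbit (fixS H F) (ofIdx b)) (MulAction.orbit (fixS H F) (g (ofIdx b))) := by
        rw [Set.disjoint_left]
        intro y hy hy'
        apply hcO'
        rw [← MulAction.orbit_eq_iff] at hy hy'
        rw [← MulAction.orbit_eq_iff, ← hy', hy]
      have hc2 : (MulAction.orbit (fixS H F) (g (ofIdx b))).ncard = m := by
        rw [ncard_orbit_conj (fun c hc => hc) hg, hm]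
      have hge : 2 * m ≤ (MulAction.orbit N (ofIdx b)).ncard := by
        have h1 := Set.ncard_union_eq hdisj (hfin _) (hfin _)
        rw [hm, hc2] at h1
        have h2 := Set.ncard_le_ncard (Set.union_subset hO'O hsub) (hfin _)
        omega
      have hfinal : (MulAction.orbit N (ofIdx b)).ncard = 2 * m := le_antisymm hUle hge
      refine ⟨1 + j + k, ?_⟩
      rw [hcard, hfinal, hj, pow_add, pow_add, pow_one]

/-- main theorem: simplicity of the 2-fusion system from the computational data -/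
theorem mat_simple (G : Subgroup (Equiv.Perm GolayPt)) (hG : G ≤ M24) (memG : ℕ → Bool)
    (hmem : ∀ P Q (h : permOK P Q = true), memG P = true → toPerm P Q h ∈ G)
    (l : List (ℕ × ℕ)) (hl : l ≠ []) (hlG : l.all (fun x => memG x.1) = true) (E : List ℕ) (htw : twr l E = true)
    (m : ℕ) (hcard : Nat.card G = 2 ^ l.length * m) (hm : ¬ 2 ∣ m)
    (z : ℕ) (hz : centerOK E l z = true) (C : List (ℕ × ℕ)) (hC : conjOK memG C = true)
    (pr : List (ℕ × ℕ × ℕ)) (hgen : genOK l (pr.foldl (prStep E C) [z]) = true)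
    (F0 : List ℕ) (hF0 : ∀ b ∈ F0, b < 24) (hfix : ∀ g ∈ G, ∀ b ∈ F0, g (ofIdx b) = ofIdx b)
    (cert : List (ℕ × ℕ)) (r : List (ℕ × List ℕ × List (List ℕ × List ℕ))) (hlv : lvls E cert F0 r = true)
    (S' : Sylow 2 G) : (groupFusionSystem (S' : Subgroup G)).IsSimple 2 := by
  obtain ⟨H, hT⟩ := twr_sound l E htw
  have hHG : H ≤ G := by
    apply hT.min
    intro x hx
    have h1 := (List.all_eq_true.1 hlG) x hx
    exact ⟨_, hmem x.1 x.2 (hT.ok x hx) h1, agrees_toPerm (hT.ok x hx)⟩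
  have hHp : IsPGroup 2 H := IsPGroup.of_card hT.card
  have hS : IsSyl 2 H G := by
    refine ⟨hHG, hHp, fun h2 => hm ?_⟩
    have h3 := Subgroup.card_mul_index (H.subgroupOf G)
    rw [Nat.card_congr (Subgroup.subgroupOfEquivOfLe hHG).toEquiv, hT.card, hcard] at h3
    have h4 : (H.subgroupOf G).index = m := Nat.eq_of_mul_eq_mul_left (by positivity) h3
    rw [← h4]; exact h2
  have hlen : 0 < l.length := List.length_pos_iff.2 hl
  have hH1 : H ≠ ⊥ := by
    intro h
    have := hT.card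
    rw [h, Subgroup.card_bot] at this
    have h2 : 1 < 2 ^ l.length := Nat.one_lt_two_pow hlen.ne'
    omega
  refine group_simple_sub 2 G H hS hH1 ?_ ?_ S'
  · intro g hg hgn
    obtain ⟨k, hk⟩ := lvls_sound hT hG hHG cert r F0 hF0 hlv
    have hle : H ≤ fixS (NG G H) F0 := fun x hx =>
      ⟨⟨hHG hx, Subgroup.le_normalizer hx⟩, fun b hb => hfix x (hHG hx) b hb⟩
    have hleG : fixS (NG G H) F0 ≤ G := fun x hx => hx.1.1
    have heq := hS.eq_of_le hleG (IsPGroup.of_card hk) hle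
    have hgH : g ∈ H := by
      rw [heq]
      exact ⟨⟨hg, hgn⟩, fun b hb => hfix g hg b hb⟩
    exact ⟨g, hgH, fun _ _ => rfl⟩
  · intro T hTH hTS
    by_cases hT1 : T = ⊥
    · exact Or.inl hT1
    right
    refine le_antisymm hTH ?_
    -- T is normal in H
    have hTn : H ≤ Subgroup.normalizer (T : Set (Equiv.Perm GolayPt)) := by
      intro h hh
      rw [Subgroup.mem_normalizer_iff]
      intro x
      constructor
      · intro hx
        exact hTS x hx h (hHG hh) (H.mul_mem (H.mul_mem hh (hTH hx)) (H.inv_mem hh))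
      · intro hx
        have h1 := hTS _ hx h⁻¹ (G.inv_mem (hHG hh)) (by
          have : h⁻¹ * (h * x * h⁻¹) * h⁻¹⁻¹ = x := by group
          rw [this]
          have : x = h⁻¹ * (h * x * h⁻¹) * h := by group
          rw [this]
          exact H.mul_mem (H.mul_mem (H.inv_mem hh) (hTH hx)) hh)
        have : h⁻¹ * (h * x * h⁻¹) * h⁻¹⁻¹ = x := by group
        rwa [this] at h1
    obtain ⟨y, hyT, hyc, hy1⟩ := CfsgH8.exists_central_of_normal hHp hTH hTn hT1
    have hyz : Agrees y z := center_sound hT hz (hTH hyT) hyc hy1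
    apply hT.min
    intro x hx
    have h1 := pr_sound hT hmem hC hTS pr (K := [z]) (by
      intro P hP
      rw [List.mem_singleton] at hP
      rw [hP]; exact ⟨y, hyT, hyz⟩)
    exact h1 _ (mem_iff.1 ((List.all_eq_true.1 hgen) x hx))

end CfsgH8.Mat
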