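import Cfsg.Agent.H8.MatFus

set_option autoImplicit false

/-! Data for the Sylow 2-subgroup of M11. -/

namespace CfsgH8.Mat.M11
open Cfsg CfsgL.Comp CfsgL.Golay

def gens : List (ℕ × ℕ) := [(0xaa8ee292905cd02b3da6886e34b240, 0x2aef1704f0551227d86daa272230c0), (0x9daa7b98b07b86252c28a4a246b120, 0x9daa7b98b07b86252c28a4a246b120), (0xa3cb79b5d0b46425a90939aa11b080, 0xa3cb79b5d0b46425a90939aa11b080), (0xa59d73b4b07d64c5a82498e2830920, 0xa59d73b4b07d64c5a82498e2830920)]

def E : List ℕ := [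
  0xbdab49ca307b9ac5a928398a418820,
  0xa59d73b4b07d64c5a82498e2830920,
  0xa3cb79b5d0b46425a90939aa11b080,
  0xbbe343cab0b15a25a88198dc933100,
  0x9daa7b98b07b86252c28a4a246b120,
  0x3d9d3a0e307d4c252d24bb4a893020,
  0x9bca7a1ab0b446c52c89bb5c190900,
  0x3be33b8dd0b14cc52d01a4aa968880,
  0xaa8ee292905cd02b3da6886e34b240,
  0x72a758a2f059c82b3e432a6860b1a0,
  0x2a8f1a86f05cd2c7da4671283409a0,
  0x8aa657269059c2c7d9a3aa2e620a40,
  0xaae8e890f055d0cb3c722a66d088c0,
  0x72ef52a2705508cb3ccd884f248860,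
  0x2aef1704f0551227d86daa272230c0,
  0x8ae85aa67055c227d8d2710ed43060]

def z : ℕ := 0xa59d73b4b07d64c5a82498e2830920

def C : List (ℕ × ℕ) := [(0x2aeae38ad2bc58d550839a1e60c120, 0x7c6aa3c1c22d18db2c26992e944860), (0xabeee9b54129cd08d864a316812640, 0xaaae79856cb52462c444735e848e00), (0x2be919caa255db05d869391c1430c0, 0x72a359ca8cb15a25bd03386e64c080)]

def prog : List (ℕ × ℕ × ℕ) := [(1, 0, 0), (1, 1, 1), (0, 1, 0), (1, 0, 2), (0, 2, 1), (0, 0, 2), (0, 0, 2)]

def cert : List (ℕ × ℕ) := [(0x10d80e, 0x149f), (0x2c9406, 0xe0900b), (0x21b01c, 0x34200f), (0xa0e106, 0xe0900b), (0xd4b004, 0x8ea003), (0x6e3008, 0xd4b004), (0x8ea003, 0xc75001), (0x8ea003, 0x49f002), (0x13e005, 0xd4b004), (0x9b3010, 0xc75001), (0x49f002, 0xc75001), (0x5c6011, 0x9b3010), (0x713021, 0xb66020), (0x2b9041, 0xecc040), (0xd98081, 0x1ed080), (0x745102, 0x3da100), (0xbc1201, 0x7b4200)]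

def lv : List (ℕ × List ℕ × List (List ℕ × List ℕ)) := [
  (1, E, []),
  (2, [0xbdab49ca307b9ac5a928398a418820, 0x3d9d3a0e307d4c252d24bb4a893020], [([], E)]),
  (10, [0xbdab49ca307b9ac5a928398a418820], [([], E), ([1], [0xbdab49ca307b9ac5a928398a418820, 0x3d9d3a0e307d4c252d24bb4a893020])]),
  (11, [0xbdab49ca307b9ac5a928398a418820], [([10], [0xbdab49ca307b9ac5a928398a418820, 0xa59d73b4b07d64c5a82498e2830920, 0xa3cb79b5d0b46425a90939aa11b080, 0xbbe343cab0b15a25a88198dc933100])]),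
  (12, [0xbdab49ca307b9ac5a928398a418820], [([], E)]),
  (15, [0xbdab49ca307b9ac5a928398a418820], [([], E)])]

def memG (P : ℕ) : Bool := inM24 P && (Nat.beq (CfsgL.Golay.img P 0x5335f) 0x5335f && Nat.beq (papp P 0) 0)

theorem twr_ok : twr gens E = true := by decide +kernel

theorem center_ok : centerOK E gens z = true := by decide +kernel

theorem gens_mem : gens.all (fun x => memG x.1) = true := by decide +kernel

theorem conj_ok : conjOK memG C = true := by decide +kernel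

theorem gen_ok : genOK gens (prog.foldl (prStep E C) [z]) = true := by decide +kernel

theorem lv_ok : lvls E cert [0] lv = true := by decide +kernel

end CfsgH8.Mat.M11
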