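import Cfsg.Agent.L.Golay.M12
import Cfsg.Agent.L.Golay.Order2
import Cfsg.Agent.L.Golay.SLP
import Cfsg.Prelude.Def_Spor_Mathieu
import Cfsg.Agent.H8.MatM11
import Cfsg.Agent.H8.MatM12
import Cfsg.Agent.H8.MatM22
import Cfsg.Agent.H8.MatM23
import Cfsg.Agent.H8.MatM24

set_option autoImplicit false

/-! Simplicity of the 2-fusion systems of the Mathieu groups. -/

namespace CfsgH8.Mat
open Cfsg CfsgL.Comp CfsgL.Golay
open scoped Pointwise

theorem M23_eq_fx : Cfsg.Spor.M23 = fx [bp 23] := by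
  ext g
  rw [mem_fx]
  show g ∈ M24 ∧ g none = none ↔ _
  simp [bp, ofIdx]

theorem M22_eq_fx : Cfsg.Spor.M22 = fx [bp 0, bp 23] := by
  ext g
  rw [mem_fx]
  show (g ∈ M24 ∧ g none = none) ∧ g (some 0) = some 0 ↔ _
  simp [bp, ofIdx]
  tauto

theorem squareDodecad_eq : Cfsg.Spor.squareDodecad = D0 := by
  unfold Cfsg.Spor.squareDodecad D0
  decide +kernel

theorem M12_eq_st : Cfsg.Spor.M12 = st D0 := by
  unfold Cfsg.Spor.M12 st
  rw [squareDodecad_eq]

theorem M11_eq_st1 : Cfsg.Spor.M11 = st1 D0 (bp 0) := by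
  unfold Cfsg.Spor.M11 st1
  rw [M12_eq_st]
  rfl

theorem m24_simple (S : Sylow 2 Cfsg.M24) : (groupFusionSystem (S : Subgroup Cfsg.M24)).IsSimple 2 := by
  refine mat_simple M24 le_rfl M24.memG (fun P Q h h' => toPerm_mem_M24 h h') M24.gens (by decide)
    M24.gens_mem M24.E M24.twr_ok 239085 ?_ (by norm_num) M24.z M24.center_ok M24.C M24.conj_ok M24.prog M24.gen_ok
    [] (by simp) (by simp) M24.cert M24.lv M24.lv_ok S
  rw [card_M24]
  have : M24.gens.length = 10 := rfl
  rw [this]; norm_num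

theorem papp_fix {P Q : ℕ} (h : permOK P Q = true) {b : ℕ} (hb : b < 24) (h' : Nat.beq (papp P b) b = true) :
    toPerm P Q h (ofIdx b) = ofIdx b := by
  rw [toPerm_apply, toIdx_ofIdx hb, natBeq_iff.1 h']

theorem m23_simple (S : Sylow 2 Cfsg.Spor.M23) : (groupFusionSystem (S : Subgroup Cfsg.Spor.M23)).IsSimple 2 := by
  refine mat_simple Cfsg.Spor.M23 ?_ M23.memG ?_ M23.gens (by decide)
    M23.gens_mem M23.E M23.twr_ok 79695 ?_ (by norm_num) M23.z M23.center_ok M23.C M23.conj_ok M23.prog M23.gen_ok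
    [23] (by simp) ?_ M23.cert M23.lv M23.lv_ok S
  · rw [M23_eq_fx]; exact fx_le _
  · intro P Q h h'
    unfold M23.memG at h'
    rw [Bool.and_eq_true] at h'
    exact ⟨toPerm_mem_M24 h h'.1, papp_fix h (b := 23) (by norm_num) h'.2⟩
  · rw [M23_eq_fx, card_fx_base1]
    have : M23.gens.length = 7 := rfl
    rw [this]; norm_num
  · intro g hg b hb
    rw [M23_eq_fx] at hg
    rw [List.mem_singleton] at hb
    subst hb
    exact hg.2 _ (by simp [bp])

theorem m22_simple (S : Sylow 2 Cfsg.Spor.M22) : (groupFusionSystem (S : Subgroup Cfsg.Spor.M22)).IsSimple 2 := by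
  refine mat_simple Cfsg.Spor.M22 ?_ M22.memG ?_ M22.gens (by decide)
    M22.gens_mem M22.E M22.twr_ok 3465 ?_ (by norm_num) M22.z M22.center_ok M22.C M22.conj_ok M22.prog M22.gen_ok
    [0, 23] (by simp) ?_ M22.cert M22.lv M22.lv_ok S
  · rw [M22_eq_fx]; exact fx_le _
  · intro P Q h h'
    unfold M22.memG at h'
    rw [Bool.and_eq_true, Bool.and_eq_true] at h'
    exact ⟨⟨toPerm_mem_M24 h h'.1, papp_fix h (b := 23) (by norm_num) h'.2.1⟩,
      papp_fix h (b := 0) (by norm_num) h'.2.2⟩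
  · rw [M22_eq_fx, card_fx_base2]
    have : M22.gens.length = 7 := rfl
    rw [this]; norm_num
  · intro g hg b hb
    rw [M22_eq_fx] at hg
    simp only [List.mem_cons, List.not_mem_nil, or_false] at hb
    rcases hb with rfl | rfl
    · exact hg.2 _ (by simp [bp])
    · exact hg.2 _ (by simp [bp])

theorem st_of_img {P Q : ℕ} (h : permOK P Q = true) (h1 : inM24 P = true)
    (h2 : Nat.beq (CfsgL.Golay.img P 0x5335f) 0x5335f = true) : toPerm P Q h ∈ st D0 := by
  rw [mem_st]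
  refine ⟨toPerm_mem_M24 h h1, ?_⟩
  unfold D0
  rw [← mset_img h, natBeq_iff.1 h2]

theorem m12_simple (S : Sylow 2 Cfsg.Spor.M12) : (groupFusionSystem (S : Subgroup Cfsg.Spor.M12)).IsSimple 2 := by
  refine mat_simple Cfsg.Spor.M12 ?_ M12.memG ?_ M12.gens (by decide)
    M12.gens_mem M12.E M12.twr_ok 1485 ?_ (by norm_num) M12.z M12.center_ok M12.C M12.conj_ok M12.prog M12.gen_ok
    [] (by simp) (by simp) M12.cert M12.lv M12.lv_ok S
  · exact inf_le_left
  · intro P Q h h'
    unfold M12.memG at h'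
    rw [Bool.and_eq_true] at h'
    rw [M12_eq_st]
    exact st_of_img h h'.1 h'.2
  · rw [M12_eq_st, card_st_dodecad D0_mem]
    have : M12.gens.length = 6 := rfl
    rw [this]; norm_num

theorem m11_simple (S : Sylow 2 Cfsg.Spor.M11) : (groupFusionSystem (S : Subgroup Cfsg.Spor.M11)).IsSimple 2 := by
  refine mat_simple Cfsg.Spor.M11 ?_ M11.memG ?_ M11.gens (by decide)
    M11.gens_mem M11.E M11.twr_ok 495 ?_ (by norm_num) M11.z M11.center_ok M11.C M11.conj_ok M11.prog M11.gen_ok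
    [0] (by simp) ?_ M11.cert M11.lv M11.lv_ok S
  · exact inf_le_left.trans inf_le_left
  · intro P Q h h'
    unfold M11.memG at h'
    rw [Bool.and_eq_true, Bool.and_eq_true] at h'
    rw [M11_eq_st1]
    exact ⟨st_of_img h h'.1 h'.2.1, papp_fix h (b := 0) (by norm_num) h'.2.2⟩
  · rw [M11_eq_st1, card_M11 D0_mem (by decide +kernel)]
    have : M11.gens.length = 4 := rfl
    rw [this]; norm_num
  · intro g hg b hb
    rw [M11_eq_st1] at hg
    rw [List.mem_singleton] at hb
    subst hb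
    exact hg.2

end CfsgH8.Mat
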