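import Mathlib
import Cfsg.Prelude.Def_ClassicalGeometry

set_option autoImplicit false

/-! Commuting reflections. -/

namespace CfsgH8

open Cfsg Matrix

theorem polarVec_dot {n : ℕ} {K : Type*} [Field K] (Q : QuadraticForm K (Fin n → K)) (v w : Fin n → K) :
    polarVec (⇑Q) v ⬝ᵥ w = QuadraticMap.polar (⇑Q) v w := by
  have h1 : w = ∑ i, w i • (Pi.single i (1 : K) : Fin n → K) := by
    ext j
    simp [Finset.sum_apply, Pi.single_apply]
  have h2 : QuadraticMap.polar (⇑Q) v w = (QuadraticMap.polarBilin Q) v w := rfl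
  rw [h2]
  conv_rhs => rw [h1]
  rw [map_sum]
  simp only [map_smul, smul_eq_mul, dotProduct]
  refine Finset.sum_congr rfl fun i _ => ?_
  rw [mul_comm]
  rfl

theorem refl_commute {n : ℕ} (Q : QuadraticForm (ZMod 3) (Fin n → ZMod 3)) (hQ : (QuadraticMap.polarBilin Q).Nondegenerate)
    (u v : Fin n → ZMod 3) (hu : Q u ≠ 0) (huv : Q u = Q v) (h1 : v ≠ u) (h2 : v ≠ -u) :
    Commute (reflectionMatrix (⇑Q) u) (reflectionMatrix (⇑Q) v) ↔ QuadraticMap.polar (⇑Q) u v = 0 := by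
  set a := polarVec (⇑Q) u with ha
  set b := polarVec (⇑Q) v with hb
  set q := Q u with hq
  have hva : a ⬝ᵥ v = QuadraticMap.polar (⇑Q) u v := polarVec_dot Q u v
  have hub : b ⬝ᵥ u = QuadraticMap.polar (⇑Q) u v := by rw [hb, polarVec_dot, QuadraticMap.polar_comm]
  set f := QuadraticMap.polar (⇑Q) u v with hf
  have hAB : vecMulVec u a * vecMulVec v b = f • vecMulVec u b := by
    rw [vecMulVec_mul_vecMulVec, hva, vecMulVec_smul]
  have hBA : vecMulVec v b * vecMulVec u a = f • vecMulVec v a := by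
    rw [vecMulVec_mul_vecMulVec, hub, vecMulVec_smul]
  have hcomm : Commute (reflectionMatrix (⇑Q) u) (reflectionMatrix (⇑Q) v) ↔ f • vecMulVec u b = f • vecMulVec v a := by
    rw [← hAB, ← hBA]
    have hr1 : reflectionMatrix (⇑Q) u = 1 - q⁻¹ • vecMulVec u a := rfl
    have hr2 : reflectionMatrix (⇑Q) v = 1 - q⁻¹ • vecMulVec v b := by
      rw [reflectionMatrix, ← huv]
    rw [hr1, hr2]
    set A := vecMulVec u a
    set B := vecMulVec v b
    have e1 : (1 - q⁻¹ • A) * (1 - q⁻¹ • B) = 1 - q⁻¹ • A - q⁻¹ • B + (q⁻¹ * q⁻¹) • (A * B) := by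
      rw [sub_mul, mul_sub, mul_sub, one_mul, one_mul, mul_one, smul_mul_smul_comm]; abel
    have e2 : (1 - q⁻¹ • B) * (1 - q⁻¹ • A) = 1 - q⁻¹ • A - q⁻¹ • B + (q⁻¹ * q⁻¹) • (B * A) := by
      rw [sub_mul, mul_sub, mul_sub, one_mul, one_mul, mul_one, smul_mul_smul_comm]; abel
    have hq' : q⁻¹ * q⁻¹ ≠ 0 := mul_ne_zero (inv_ne_zero hu) (inv_ne_zero hu)
    constructor
    · intro h
      have h3 : (1 - q⁻¹ • A) * (1 - q⁻¹ • B) = (1 - q⁻¹ • B) * (1 - q⁻¹ • A) := h
      rw [e1, e2] at h3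
      have h4 := add_left_cancel h3
      exact smul_right_injective _ hq' h4
    · intro h
      show (1 - q⁻¹ • A) * (1 - q⁻¹ • B) = (1 - q⁻¹ • B) * (1 - q⁻¹ • A)
      rw [e1, e2, h]
  rw [hcomm]
  constructor
  · intro h
    by_contra hf0
    have h3 : vecMulVec u b = vecMulVec v a := smul_right_injective _ hf0 h
    have hv0 : v ≠ 0 := by
      intro h0
      apply hu
      rw [huv, h0]; exact map_zero _
    obtain ⟨w, hw⟩ : ∃ w, QuadraticMap.polar (⇑Q) v w ≠ 0 := by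
      by_contra hcon
      push Not at hcon
      exact hv0 (hQ.1 v hcon)
    have h4 : (b ⬝ᵥ w) • u = (a ⬝ᵥ w) • v := by
      have := congrArg (fun M => M *ᵥ w) h3
      simp only [vecMulVec_mulVec, op_smul_eq_smul] at this
      exact this
    have hbw : b ⬝ᵥ w ≠ 0 := by rw [hb, polarVec_dot]; exact hw
    have h5 : u = ((b ⬝ᵥ w)⁻¹ * (a ⬝ᵥ w)) • v := by
      rw [mul_smul, ← h4, smul_smul, inv_mul_cancel₀ hbw, one_smul]
    generalize ((b ⬝ᵥ w)⁻¹ * (a ⬝ᵥ w)) = c at h5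
    have hc : c = 0 ∨ c = 1 ∨ c = -1 := by
      have hall : ∀ c : ZMod 3, c = 0 ∨ c = 1 ∨ c = -1 := by decide
      exact hall c
    rcases hc with rfl | rfl | rfl
    · rw [zero_smul] at h5
      apply hu
      rw [hq, h5]; exact map_zero _
    · rw [one_smul] at h5; exact h1 h5.symm
    · rw [neg_one_smul] at h5; exact h2 (by rw [h5, neg_neg])
  · intro h
    rw [h, zero_smul, zero_smul]

end CfsgH8
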