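import Cfsg.Agent.L.Golay.SLP

set_option autoImplicit false
set_option linter.unusedSectionVars false
set_option linter.unusedVariables false

/-! Towers of packed permutations of the 24 points: explicit 2-subgroups. -/

namespace CfsgH8.Mat
open Cfsg CfsgL.Comp CfsgL.Golay

theorem papp_le (P i : ℕ) : papp P i < 32 := by
  have : papp P i = (P >>> (5 * i)) % 32 := by
    change (P >>> (5 * i)) &&& 31 = _
    exact Nat.and_two_pow_sub_one_eq_mod (n := 5) _
  rw [this]; exact Nat.mod_lt _ (by norm_num)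

theorem pack_congr_aux {f g : ℕ → ℕ} (k : ℕ) (h : ∀ i < k, f i = g i) :
    (Nat.rec (motive := fun _ => ℕ) 0 (fun i ih => Nat.lor (Nat.shiftLeft (f i) (Nat.mul 5 i)) ih) k : ℕ) =
    Nat.rec (motive := fun _ => ℕ) 0 (fun i ih => Nat.lor (Nat.shiftLeft (g i) (Nat.mul 5 i)) ih) k := by
  induction k with
  | zero => rfl
  | succ k ih =>
    simp only
    rw [ih (fun i hi => h i (Nat.lt_succ_of_lt hi)), h k (Nat.lt_succ_self k)]

theorem pack_congr {f g : ℕ → ℕ} (h : ∀ i < 24, f i = g i) : pack f = pack g := pack_congr_aux 24 h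

/-- canonical packed form -/
def Canon (P : ℕ) : Prop := pack (papp P) = P

theorem canon_pack {f : ℕ → ℕ} (hf : ∀ i < 24, f i < 32) : Canon (pack f) :=
  pack_congr (fun i hi => papp_pack hf hi)

theorem canon_pmul (P Q : ℕ) : Canon (pmul P Q) := canon_pack (fun i _ => papp_le _ _)

theorem eq_of_agrees {g : Equiv.Perm GolayPt} {P Q : ℕ} (hP : Canon P) (hQ : Canon Q) (h1 : Agrees g P)
    (h2 : Agrees g Q) : P = Q := by
  rw [← hP, ← hQ]
  exact pack_congr (fun i hi => by rw [← h1 i hi, h2 i hi])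

theorem perm_eq_of_agrees {g h : Equiv.Perm GolayPt} {P : ℕ} (h1 : Agrees g P) (h2 : Agrees h P) : g = h := by
  refine Equiv.ext fun p => toIdx_injective ?_
  rw [h1.apply, h2.apply]

theorem agrees_toPerm {P Q : ℕ} (h : permOK P Q = true) : Agrees (toPerm P Q h) P := by
  intro i hi
  rw [toIdx_toPerm, toIdx_ofIdx hi]

theorem agrees_toPerm_inv {P Q : ℕ} (h : permOK P Q = true) : Agrees (toPerm P Q h)⁻¹ Q := by
  intro i hi
  have h1 := permOK_iff.1 h
  have : (toPerm P Q h)⁻¹ (ofIdx i) = ofIdx (papp Q i) := by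
    rw [Equiv.Perm.inv_eq_iff_eq]
    rw [toPerm_apply, toIdx_ofIdx (h1 i hi).2.1, (h1 i hi).2.2]
  rw [this, toIdx_ofIdx (h1 i hi).2.1]

/-- membership test in a list -/
def mem (l : List ℕ) (x : ℕ) : Bool := l.any (fun y => Nat.beq y x)

theorem mem_iff {l : List ℕ} {x : ℕ} : mem l x = true ↔ x ∈ l := by
  simp only [mem, List.any_eq_true, natBeq_iff]
  exact ⟨fun ⟨y, hy, h⟩ => h ▸ hy, fun h => ⟨x, h, rfl⟩⟩

/-- equality test of lists -/
def leq : List ℕ → List ℕ → Bool
  | [], [] => true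
  | a :: l, b :: m => Nat.beq a b && leq l m
  | _, _ => false

theorem leq_iff {l m : List ℕ} : leq l m = true ↔ l = m := by
  induction l generalizing m with
  | nil => cases m <;> simp [leq]
  | cons a l ih =>
    cases m with
    | nil => simp [leq]
    | cons b m => simp [leq, ih]

/-- the checker for towers: top generator first -/
def twr : List (ℕ × ℕ) → List ℕ → Bool
  | [], E => leq E [pone]
  | x :: l, E =>
    (permOK x.1 x.2 && Nat.beq (pmul x.1 pone) x.1) &&
      ((leq (E.drop (2 ^ l.length)) ((E.take (2 ^ l.length)).map (fun P => pmul P x.1)) &&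
        twr l (E.take (2 ^ l.length))) &&
      ((mem (E.take (2 ^ l.length)) (pmul x.1 x.1) && !(mem (E.take (2 ^ l.length)) x.1)) &&
        l.all (fun y => mem (E.take (2 ^ l.length)) (pmul (pmul x.1 y.1) x.2))))

/-- what a tower gives -/
structure Twr (l : List (ℕ × ℕ)) (E : List ℕ) (H : Subgroup (Equiv.Perm GolayPt)) : Prop where
  rep : ∀ g, g ∈ H ↔ ∃ P ∈ E, Agrees g P
  card : Nat.card H = 2 ^ l.length
  canon : ∀ P ∈ E, Canon P
  ex : ∀ P ∈ E, InH H P
  gens : ∀ x ∈ l, InH H x.1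
  ok : ∀ x ∈ l, permOK x.1 x.2 = true
  min : ∀ T : Subgroup (Equiv.Perm GolayPt), (∀ x ∈ l, InH T x.1) → H ≤ T

theorem canon_pone : Canon pone := by
  apply canon_pack
  intro i hi; omega

/-- one step of the tower, at the group level -/
theorem step_group {A : Type*} [Group A] [Finite A] (H : Subgroup A) (g : A) (hg : g ∉ H) (hgg : g * g ∈ H)
    (hn : ∀ h ∈ H, g * h * g⁻¹ ∈ H) :
    ∃ H' : Subgroup A, (∀ a, a ∈ H' ↔ a ∈ H ∨ ∃ h ∈ H, a = h * g) ∧ Nat.card H' = 2 * Nat.card H := by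
  have hgm : g⁻¹ * g⁻¹ ∈ H := by
    have := H.inv_mem hgg
    simpa using this
  have hn' : ∀ h ∈ H, g⁻¹ * h * g ∈ H := by
    intro h hh
    have h1 := hn (g⁻¹ * g⁻¹ * h * (g * g)) (H.mul_mem (H.mul_mem hgm hh) hgg)
    have : g * (g⁻¹ * g⁻¹ * h * (g * g)) * g⁻¹ = g⁻¹ * h * g := by group
    rwa [this] at h1
  let H' : Subgroup A :=
    { carrier := {a | a ∈ H ∨ ∃ h ∈ H, a = h * g}
      one_mem' := Or.inl H.one_mem
      mul_mem' := by
        rintro a b (ha | ⟨h, hh, rfl⟩) (hb | ⟨k, hk, rfl⟩)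
        · exact Or.inl (H.mul_mem ha hb)
        · exact Or.inr ⟨a * k, H.mul_mem ha hk, by rw [mul_assoc]⟩
        · refine Or.inr ⟨h * (g * b * g⁻¹), H.mul_mem hh (hn b hb), by group⟩
        · refine Or.inl ?_
          have : h * g * (k * g) = h * (g * k * g⁻¹) * (g * g) := by group
          rw [this]
          exact H.mul_mem (H.mul_mem hh (hn k hk)) hgg
      inv_mem' := by
        rintro a (ha | ⟨h, hh, rfl⟩)
        · exact Or.inl (H.inv_mem ha)
        · refine Or.inr ⟨(g⁻¹ * h⁻¹ * g) * (g⁻¹ * g⁻¹), H.mul_mem (hn' _ (H.inv_mem hh)) hgm, by group⟩ }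
  refine ⟨H', fun a => Iff.rfl, ?_⟩
  have hle : H ≤ H' := fun a ha => Or.inl ha
  have hidx : (H.subgroupOf H').index = 2 := by
    rw [Subgroup.index_eq_two_iff]
    have hgH' : g ∈ H' := Or.inr ⟨1, H.one_mem, by rw [one_mul]⟩
    refine ⟨⟨g, hgH'⟩, ?_⟩
    rintro ⟨b, hb⟩
    simp only [Subgroup.mem_subgroupOf, Subgroup.coe_mul]
    rcases hb with hb | ⟨h, hh, rfl⟩
    · refine Or.inr ⟨hb, fun h => hg ?_⟩
      have := H.mul_mem (H.inv_mem hb) h
      simpa using this
    · refine Or.inl ⟨?_, fun h' => hg ?_⟩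
      · rw [mul_assoc]; exact H.mul_mem hh hgg
      · have := H.mul_mem (H.inv_mem hh) h'
        simpa using this
  have h1 := Subgroup.card_mul_index (H.subgroupOf H')
  rw [hidx, Nat.card_congr (Subgroup.subgroupOfEquivOfLe hle).toEquiv] at h1
  rw [← h1, mul_comm]

theorem twr_sound (l : List (ℕ × ℕ)) : ∀ E : List ℕ, twr l E = true → ∃ H, Twr l E H := by
  induction l with
  | nil =>
    intro E hE
    rw [twr, leq_iff] at hE
    subst hE
    refine ⟨⊥, ?_, ?_, ?_, ?_, ?_, fun x hx => by simp at hx, ?_⟩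
    · intro g
      constructor
      · intro hg
        rw [Subgroup.mem_bot] at hg
        exact ⟨pone, by simp, hg ▸ agrees_one⟩
      · rintro ⟨P, hP, h⟩
        simp only [List.mem_singleton] at hP
        subst hP
        rw [Subgroup.mem_bot]
        exact perm_eq_of_agrees h agrees_one
    · simp
    · intro P hP
      simp only [List.mem_singleton] at hP
      subst hP; exact canon_pone
    · intro P hP
      simp only [List.mem_singleton] at hP
      subst hP; exact ⟨1, Subgroup.one_mem _, agrees_one⟩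
    · intro x hx; simp at hx
    · intro T _; exact bot_le
  | cons x l ih =>
    intro E hE
    rw [twr] at hE
    simp only [Bool.and_eq_true, natBeq_iff, leq_iff, mem_iff, List.all_eq_true, Bool.not_eq_true'] at hE
    obtain ⟨⟨h1, h2⟩, ⟨h3, h4⟩, ⟨h5, h6⟩, h7⟩ := hE
    set E' := E.take (2 ^ l.length) with hE'
    have hEsplit : E = E' ++ E'.map (fun P => pmul P x.1) := by
      rw [← h3, hE', List.take_append_drop]
    obtain ⟨H, hH⟩ := ih E' h4
    set g := toPerm x.1 x.2 h1 with hg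
    have hgA : Agrees g x.1 := agrees_toPerm h1
    have hgA' : Agrees g⁻¹ x.2 := agrees_toPerm_inv h1
    have hxc : Canon x.1 := by rw [← h2]; exact canon_pmul _ _
    have hgH : g ∉ H := by
      intro hgH
      obtain ⟨P, hP, hPA⟩ := (hH.rep g).1 hgH
      have := eq_of_agrees hxc (hH.canon P hP) hgA hPA
      rw [← this] at hP
      rw [mem_iff.2 hP] at h6
      exact Bool.noConfusion h6
    have hgg : g * g ∈ H := (hH.rep _).2 ⟨_, h5, hgA.mul hgA⟩
    have hn : ∀ h ∈ H, g * h * g⁻¹ ∈ H := by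
      have : H ≤ H.comap (MulAut.conj g).toMonoidHom := by
        apply hH.min
        intro y hy
        obtain ⟨k, hk, hkA⟩ := hH.gens y hy
        refine ⟨k, ?_, hkA⟩
        show g * k * g⁻¹ ∈ H
        exact (hH.rep _).2 ⟨_, h7 y hy, (hgA.mul hkA).mul hgA'⟩
      exact fun h hh => this hh
    obtain ⟨H', hH', hcard⟩ := step_group H g hgH hgg hn
    have hle : H ≤ H' := fun a ha => (hH' a).2 (Or.inl ha)
    have hgH' : g ∈ H' := (hH' g).2 (Or.inr ⟨1, H.one_mem, by rw [one_mul]⟩)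
    refine ⟨H', ?_, ?_, ?_, ?_, ?_, ?_, ?_⟩
    · intro a
      rw [hH', hEsplit]
      constructor
      · rintro (ha | ⟨h, hh, rfl⟩)
        · obtain ⟨P, hP, hPA⟩ := (hH.rep a).1 ha
          exact ⟨P, List.mem_append_left _ hP, hPA⟩
        · obtain ⟨P, hP, hPA⟩ := (hH.rep h).1 hh
          exact ⟨pmul P x.1, List.mem_append_right _ (List.mem_map.2 ⟨P, hP, rfl⟩), hPA.mul hgA⟩
      · rintro ⟨P, hP, hPA⟩
        rcases List.mem_append.1 hP with hP | hP
        · exact Or.inl ((hH.rep a).2 ⟨P, hP, hPA⟩)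
        · obtain ⟨P', hP', rfl⟩ := List.mem_map.1 hP
          obtain ⟨h, hh, hhA⟩ := hH.ex P' hP'
          exact Or.inr ⟨h, hh, perm_eq_of_agrees hPA (hhA.mul hgA)⟩
    · rw [hcard, hH.card, List.length_cons, pow_succ, mul_comm]
    · intro P hP
      rw [hEsplit] at hP
      rcases List.mem_append.1 hP with hP | hP
      · exact hH.canon P hP
      · obtain ⟨P', hP', rfl⟩ := List.mem_map.1 hP
        exact canon_pmul _ _
    · intro P hP
      rw [hEsplit] at hP
      rcases List.mem_append.1 hP with hP | hP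
      · obtain ⟨h, hh, hhA⟩ := hH.ex P hP
        exact ⟨h, hle hh, hhA⟩
      · obtain ⟨P', hP', rfl⟩ := List.mem_map.1 hP
        obtain ⟨h, hh, hhA⟩ := hH.ex P' hP'
        exact ⟨h * g, H'.mul_mem (hle hh) hgH', hhA.mul hgA⟩
    · intro y hy
      rcases List.mem_cons.1 hy with rfl | hy
      · exact ⟨g, hgH', hgA⟩
      · obtain ⟨k, hk, hkA⟩ := hH.gens y hy
        exact ⟨k, hle hk, hkA⟩
    · intro y hy
      rcases List.mem_cons.1 hy with rfl | hy
      · exact h1
      · exact hH.ok y hy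
    · intro T hT
      have hHT : H ≤ T := hH.min T (fun y hy => hT y (List.mem_cons_of_mem _ hy))
      obtain ⟨k, hk, hkA⟩ := hT x List.mem_cons_self
      have hgT : g ∈ T := by rw [perm_eq_of_agrees hgA hkA]; exact hk
      intro a ha
      rcases (hH' a).1 ha with ha | ⟨h, hh, rfl⟩
      · exact hHT ha
      · exact T.mul_mem (hHT hh) hgT

end CfsgH8.Mat
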