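import Mathlib

set_option autoImplicit false

/-! Equivariant products and invariant trilinear forms. -/

namespace CfsgH8

section
variable {H : Type*} [Group H] {U : Type*} [AddCommGroup U] [Module ℝ U] [FiniteDimensional ℝ U]

theorem tril_iff (ρ : Representation ℝ H U) (hirr : ∀ W : Submodule ℝ U, (∀ g : H, W.map (ρ g) ≤ W) → W = ⊥ ∨ W = ⊤)
    (B : LinearMap.BilinForm ℝ U) (hB0 : B ≠ 0) (hBs : ∀ u v, B u v = B v u)
    (hBi : ∀ (g : H) (u v : U), B (ρ g u) (ρ g v) = B u v) :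
    (∃ m : U →ₗ[ℝ] U →ₗ[ℝ] U, m ≠ 0 ∧ (∀ u v, m u v = m v u) ∧ (∀ (g : H) (u v : U), m (ρ g u) (ρ g v) = ρ g (m u v)) ∧
      ∀ m' : U →ₗ[ℝ] U →ₗ[ℝ] U, (∀ (g : H) (u v : U), m' (ρ g u) (ρ g v) = ρ g (m' u v)) → ∃ c : ℝ, m' = c • m) ↔
    (∃ t : U →ₗ[ℝ] U →ₗ[ℝ] U →ₗ[ℝ] ℝ, t ≠ 0 ∧ (∀ u v w, t u v w = t v u w ∧ t u v w = t u w v) ∧
      (∀ (g : H) (u v w : U), t (ρ g u) (ρ g v) (ρ g w) = t u v w) ∧
      ∀ t' : U →ₗ[ℝ] U →ₗ[ℝ] U →ₗ[ℝ] ℝ, (∀ (g : H) (u v w : U), t' (ρ g u) (ρ g v) (ρ g w) = t' u v w) → ∃ c : ℝ, t' = c • t) := by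
  have hρ : ∀ (g : H) (w : U), ρ g (ρ g⁻¹ w) = w := fun g w => by
    rw [← Module.End.mul_apply, ← map_mul, mul_inv_cancel, map_one, Module.End.one_apply]
  -- nondegeneracy
  have hinj : Function.Injective B := by
    have hW := hirr (LinearMap.ker B) (fun g => by
      rintro _ ⟨u, hu, rfl⟩
      have hu' : B u = 0 := hu
      rw [LinearMap.mem_ker]
      ext v
      have h1 := hBi g u (ρ g⁻¹ v)
      rw [hρ, hu'] at h1
      exact h1)
    rcases hW with h | h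
    · exact LinearMap.ker_eq_bot.1 h
    · exact absurd (LinearMap.ker_eq_top.1 h) hB0
  have hinj' : ∀ x y : U, (∀ w, B x w = B y w) → x = y := fun x y h => hinj (LinearMap.ext h)
  have hsurj : Function.Surjective B := by
    refine (LinearMap.injective_iff_surjective_of_finrank_eq_finrank ?_).1 hinj
    exact (Subspace.dual_finrank_eq).symm
  let e : U ≃ₗ[ℝ] (U →ₗ[ℝ] ℝ) := LinearEquiv.ofBijective B ⟨hinj, hsurj⟩
  have he : ∀ x w, e x w = B x w := fun x w => rfl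
  let T : (U →ₗ[ℝ] U →ₗ[ℝ] U) → (U →ₗ[ℝ] U →ₗ[ℝ] U →ₗ[ℝ] ℝ) := fun m => m.compr₂ e.toLinearMap
  let M : (U →ₗ[ℝ] U →ₗ[ℝ] U →ₗ[ℝ] ℝ) → (U →ₗ[ℝ] U →ₗ[ℝ] U) := fun t => t.compr₂ e.symm.toLinearMap
  have hT : ∀ m u v w, T m u v w = B (m u v) w := fun m u v w => rfl
  have hM : ∀ t u v w, B (M t u v) w = t u v w := by
    intro t u v w
    have : e (M t u v) = t u v := e.apply_symm_apply _
    rw [← he, this]
  have hTeq : ∀ m, (∀ (g : H) (u v : U), m (ρ g u) (ρ g v) = ρ g (m u v)) →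
      ∀ (g : H) (u v w : U), T m (ρ g u) (ρ g v) (ρ g w) = T m u v w := by
    intro m hm g u v w
    rw [hT, hT, hm, hBi]
  have hMeq : ∀ t : U →ₗ[ℝ] U →ₗ[ℝ] U →ₗ[ℝ] ℝ, (∀ (g : H) (u v w : U), t (ρ g u) (ρ g v) (ρ g w) = t u v w) →
      ∀ (g : H) (u v : U), M t (ρ g u) (ρ g v) = ρ g (M t u v) := by
    intro t ht g u v
    apply hinj'
    intro w
    rw [hM]
    have h1 := ht g u v (ρ g⁻¹ w)
    rw [hρ] at h1
    rw [h1, ← hM, ← hBi g, hρ]
  constructor
  · rintro ⟨m, hm0, hmc, hme, hmu⟩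
    have hu' : ∀ t' : U →ₗ[ℝ] U →ₗ[ℝ] U →ₗ[ℝ] ℝ, (∀ (g : H) (u v w : U), t' (ρ g u) (ρ g v) (ρ g w) = t' u v w) →
        ∃ c : ℝ, t' = c • T m := by
      intro t' ht'
      obtain ⟨c, hc⟩ := hmu (M t') (hMeq t' ht')
      refine ⟨c, ?_⟩
      ext u v w
      rw [← hM, hc]
      show B (c • m u v) w = c • (B (m u v) w)
      rw [map_smul]; rfl
    have hT0 : T m ≠ 0 := by
      intro h
      apply hm0
      ext u v
      apply hinj'
      intro w
      rw [← hT, h]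
      simp
    have hs1 : ∀ u v w, T m u v w = T m v u w := fun u v w => by rw [hT, hT, hmc]
    let t' : U →ₗ[ℝ] U →ₗ[ℝ] U →ₗ[ℝ] ℝ := (LinearMap.lflip (R₀ := ℝ)).toLinearMap.comp (T m)
    have ht' : ∀ u v w, t' u v w = T m u w v := fun u v w => rfl
    obtain ⟨c, hc⟩ := hu' t' (fun g u v w => by rw [ht', ht', hTeq m hme])
    have hcc : ∀ u v w, T m u w v = c * T m u v w := fun u v w => by
      rw [← ht', hc]; rfl
    obtain ⟨u0, v0, w0, h0⟩ : ∃ u v w, T m u v w ≠ 0 := by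
      by_contra hcon
      push Not at hcon
      apply hT0
      ext u v w
      exact hcon u v w
    have hc2 : c * c = 1 := by
      have h1 := hcc u0 w0 v0
      rw [hcc u0 v0 w0, ← mul_assoc] at h1
      exact mul_right_cancel₀ h0 (by rw [one_mul]; exact h1.symm)
    have hc1 : c = 1 := by
      have h2 : (c - 1) * (c + 1) = 0 := by ring_nf; nlinarith
      rcases mul_eq_zero.1 h2 with h | h
      · linarith
      · exfalso
        have hc' : c = -1 := by linarith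
        rw [hc'] at hcc
        apply h0
        have a1 := hs1 u0 v0 w0
        have a2 := hcc v0 w0 u0
        have a3 := hs1 v0 w0 u0
        have a4 := hcc w0 u0 v0
        have a5 := hs1 w0 u0 v0
        have a6 := hcc u0 v0 w0
        linarith
    refine ⟨T m, hT0, fun u v w => ⟨hs1 u v w, ?_⟩, hTeq m hme, hu'⟩
    rw [hcc u v w, hc1, one_mul]
  · rintro ⟨t, ht0, hts, hte, htu⟩
    refine ⟨M t, ?_, ?_, hMeq t hte, ?_⟩
    · intro h
      apply ht0
      ext u v w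
      rw [← hM, h]
      simp
    · intro u v
      apply hinj'
      intro w
      rw [hM, hM]
      exact (hts u v w).1
    · intro m' hm'
      obtain ⟨c, hc⟩ := htu (T m') (hTeq m' hm')
      refine ⟨c, ?_⟩
      ext u v
      apply hinj'
      intro w
      rw [← hT, hc]
      show c • t u v w = B (c • M t u v) w
      rw [map_smul, LinearMap.smul_apply, hM]

end

end CfsgH8
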