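import Cfsg.Agent.H8.FusGroup
import Cfsg.Agent.H8.FusNormal3
import Cfsg.Agent.H8.WellPl2
import Cfsg.Agent.H5.ZStar2
import Cfsg.Agent.H2.PLayer

set_option autoImplicit false
set_option linter.style.haveILetI false
set_option linter.unusedSectionVars false
set_option linter.unusedVariables false

/-! The centre of the fusion system of a finite group, `p = 2`. -/

namespace CfsgH8
open Cfsg Cfsg.FusionSystem

universe u

/-- a `p`-element of `S N` is conjugate under `N` to an element of `S` -/
theorem exists_conj_mem_of_sup {G : Type*} [Group G] [Finite G] {p : ℕ} [Fact p.Prime] {S N : Subgroup G} (hS : IsPGroup p S)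
    (hSN : S ≤ Subgroup.normalizer (N : Set G)) (hN : (Nat.card N).Coprime p) {y : G} (hy : y ∈ S ⊔ N)
    (hyp : IsPGroup p (Subgroup.zpowers y)) : ∃ n ∈ N, n * y * n⁻¹ ∈ S := by
  have hsyl : IsSyl p S (S ⊔ N) := by
    refine ⟨le_sup_left, hS, ?_⟩
    rw [relIndex_sup_of_le_normalizer hSN]
    intro hd
    have h1 : p ∣ Nat.card N := hd.trans (Subgroup.relIndex_dvd_card S N)
    have h2 := Nat.Coprime.eq_one_of_dvd hN.symm h1
    exact (Fact.out : p.Prime).one_lt.ne' h2
  obtain ⟨a, ha, h⟩ := hsyl.exists_conj_le ((Subgroup.zpowers_le).2 hy) hyp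
  have h1 := h y (Subgroup.mem_zpowers y)
  have h2 : a⁻¹ ∈ S ⊔ N := Subgroup.inv_mem _ ha
  -- `a = s n`
  have h3 : ∃ s ∈ S, ∃ n ∈ N, a = s * n := by
    have h4 : (N.subgroupOf (S ⊔ N)).Normal := by
      rw [Subgroup.normal_subgroupOf_iff_le_normalizer le_sup_right]
      exact sup_le hSN Subgroup.le_normalizer
    have h5 : (⟨a, ha⟩ : ↥(S ⊔ N)) ∈ S.subgroupOf (S ⊔ N) ⊔ N.subgroupOf (S ⊔ N) := by
      rw [← Subgroup.subgroupOf_sup le_sup_left le_sup_right, Subgroup.subgroupOf_self]
      trivial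
    obtain ⟨s, hs, n, hn, hsn⟩ := Subgroup.mem_sup_of_normal_right.1 h5
    exact ⟨s, hs, n, hn, congrArg Subtype.val hsn.symm⟩
  obtain ⟨s, hs, n, hn, rfl⟩ := h3
  refine ⟨n, hn, ?_⟩
  have h4 := S.mul_mem (S.mul_mem (S.inv_mem hs) h1) hs
  have h5 : s⁻¹ * (s * n * y * (s * n)⁻¹) * s = n * y * n⁻¹ := by group
  rwa [h5] at h4

/-- the `Z*`-theorem for subgroups -/
theorem zstar_sub : ∀ n : ℕ, ∀ {G : Type u} [Group G] [Finite G] (S : Sylow 2 G) (Z : Subgroup G), Nat.card G = n →
    Z ≤ S → (∀ z ∈ Z, ∀ g : G, g * z * g⁻¹ ∈ S → g * z * g⁻¹ = z) → ∀ z ∈ Z, ∀ g : G, z * g * z⁻¹ * g⁻¹ ∈ pPrimeCore 2 G := by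
  intro n
  induction n using Nat.strong_induction_on with
  | _ n ih =>
  intro G _ _ S Z hn hZS h z hz g
  by_cases hO : pPrimeCore 2 G = ⊥
  · by_cases hz1 : z = 1
    · subst hz1
      have : (1 : G) * g * 1⁻¹ * g⁻¹ = 1 := by group
      rw [this]
      exact Subgroup.one_mem _
    -- an involution of `Z`
    have hZp : IsPGroup 2 Z := S.isPGroup'.to_le hZS
    have hnt : Nontrivial Z := ⟨⟨⟨z, hz⟩, 1, fun h => hz1 (congrArg Subtype.val h)⟩⟩
    obtain ⟨k, hk, hkc⟩ := hZp.nontrivial_iff_card.1 hnt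
    have hd : 2 ∣ Nat.card Z := by rw [hkc]; exact dvd_pow_self 2 hk.ne'
    obtain ⟨⟨u, huZ⟩, hu⟩ := exists_prime_orderOf_dvd_card' 2 hd
    have hu2 : orderOf u = 2 := by
      rw [← hu, ← Subgroup.orderOf_coe]
    have hucen : ∀ g : G, u * g = g * u := by
      intro g
      have h1 := CfsgH5.zstar S hu2 (hZS huZ) (h u huZ) g
      rw [hO, Subgroup.mem_bot, mul_inv_eq_one, mul_inv_eq_iff_eq_mul] at h1
      exact h1
    set U := Subgroup.zpowers u with hU
    have hUc : U ≤ Subgroup.center G := by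
      rw [hU, Subgroup.zpowers_le, Subgroup.mem_center_iff]
      exact fun g => (hucen g).symm
    haveI hUn : U.Normal := ⟨fun x hx g => by
      have := Subgroup.mem_center_iff.1 (hUc hx) g
      rw [this, mul_inv_cancel_right]; exact hx⟩
    have hUS : U ≤ (S : Subgroup G) := by rw [hU, Subgroup.zpowers_le]; exact hZS huZ
    have hsurj := QuotientGroup.mk'_surjective U
    have hcard : Nat.card (G ⧸ U) < n := by
      rw [← hn]
      have h1 := Subgroup.card_eq_card_quotient_mul_card_subgroup U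
      have h2 : Nat.card U = 2 := by rw [hU, Nat.card_zpowers]; exact hu2
      have h3 : 0 < Nat.card (G ⧸ U) := Nat.card_pos
      rw [h1, h2]; omega
    have key := ih _ hcard (S.mapSurjective hsurj) (Z.map (QuotientGroup.mk' U)) rfl
      (by rw [Sylow.coe_mapSurjective]; exact Subgroup.map_mono hZS) (by
        rintro _ ⟨w, hw, rfl⟩ g'
        obtain ⟨g, rfl⟩ := hsurj g'
        intro hm
        have hm' : QuotientGroup.mk' U (g * w * g⁻¹) ∈ (S : Subgroup G).map (QuotientGroup.mk' U) := by
          rw [← Sylow.coe_mapSurjective hsurj S, map_mul, map_mul, map_inv]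
          exact hm
        obtain ⟨s, hs, hse⟩ := hm'
        have h1 : s⁻¹ * (g * w * g⁻¹) ∈ U := QuotientGroup.eq.1 hse
        have h2 : g * w * g⁻¹ ∈ (S : Subgroup G) := by
          have := (S : Subgroup G).mul_mem hs (hUS h1)
          rwa [mul_inv_cancel_left] at this
        have h3 := h w hw g h2
        rw [← map_inv, ← map_mul, ← map_mul, h3]) (QuotientGroup.mk' U z) ⟨z, hz, rfl⟩ (QuotientGroup.mk' U g)
    -- the preimage of `O(G/U)` is `U`
    have hK : (pPrimeCore 2 (G ⧸ U)).comap (QuotientGroup.mk' U) ≤ U := by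
      set K := (pPrimeCore 2 (G ⧸ U)).comap (QuotientGroup.mk' U) with hKdef
      have hUK : U ≤ K := by
        intro x hx
        rw [hKdef, Subgroup.mem_comap, QuotientGroup.mk'_apply, (QuotientGroup.eq_one_iff x).2 hx]
        exact Subgroup.one_mem _
      haveI hUKn : (U.subgroupOf K).Normal := inferInstance
      have hidx : (U.subgroupOf K).index = Nat.card (pPrimeCore 2 (G ⧸ U)) := by
        have h1 := CfsgH2.card_comap_mk' (N := U) (pPrimeCore 2 (G ⧸ U))
        have h2 := Subgroup.card_mul_index (U.subgroupOf K)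
        have h3 : Nat.card (U.subgroupOf K) = Nat.card U := Nat.card_congr (Subgroup.subgroupOfEquivOfLe hUK).toEquiv
        rw [h3] at h2
        have h4 : 0 < Nat.card U := Nat.card_pos
        have h5 : Nat.card U * (U.subgroupOf K).index = Nat.card U * Nat.card (pPrimeCore 2 (G ⧸ U)) := by
          rw [h2, h1, mul_comm]
        exact Nat.eq_of_mul_eq_mul_left h4 h5
      have hcop : (Nat.card (U.subgroupOf K)).Coprime (U.subgroupOf K).index := by
        have h3 : Nat.card (U.subgroupOf K) = Nat.card U := Nat.card_congr (Subgroup.subgroupOfEquivOfLe hUK).toEquiv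
        have h6 : Nat.card U = 2 := by rw [hU, Nat.card_zpowers]; exact hu2
        rw [hidx, h3, h6]
        exact (CfsgH2.coprime_card_pPrimeCore 2).symm
      obtain ⟨C, hC⟩ := Subgroup.exists_right_complement'_of_coprime hcop
      -- `C` is normal
      have hCn : C.Normal := by
        refine ⟨fun x hx g => ?_⟩
        have h1 : g ∈ (⊤ : Subgroup K) := trivial
        rw [← hC.sup_eq_top] at h1
        obtain ⟨a, ha, b, hb, rfl⟩ := Subgroup.mem_sup_of_normal_left.1 h1
        have hac : ∀ y : K, a * y = y * a := by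
          intro y
          apply Subtype.ext
          have h2 : (a : G) ∈ Subgroup.center G := hUc ha
          exact (Subgroup.mem_center_iff.1 h2 y).symm
        have h2 : a * b * x * (a * b)⁻¹ = b * x * b⁻¹ := by
          have h3 := hac (b * x * b⁻¹)
          calc a * b * x * (a * b)⁻¹ = (a * (b * x * b⁻¹)) * a⁻¹ := by group
            _ = _ := by rw [h3]; group
        rw [h2]
        exact C.mul_mem (C.mul_mem hb hx) (C.inv_mem hb)
      have hCcard : Nat.card C = (U.subgroupOf K).index := hC.symm.index_eq_card.symm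
      have hC1 : C ≤ pPrimeCore 2 K := CfsgH2.le_pPrimeCore hCn (by
        rw [hCcard, hidx]; exact CfsgH2.coprime_card_pPrimeCore 2)
      have hKn : K.Normal := inferInstance
      have hC2 : C.map K.subtype ≤ pPrimeCore 2 G :=
        (Subgroup.map_mono hC1).trans (CfsgH2.IsSubnormal.pPrimeCore_le hKn.isSubnormal)
      rw [hO, le_bot_iff, Subgroup.map_eq_bot_iff_of_injective _ K.subtype_injective] at hC2
      have h3 := hC.sup_eq_top
      rw [hC2, sup_bot_eq, Subgroup.subgroupOf_eq_top] at h3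
      exact h3
    have h1 : z * g * z⁻¹ * g⁻¹ ∈ U := by
      apply hK
      rw [Subgroup.mem_comap, map_mul, map_mul, map_mul, map_inv, map_inv]
      exact key
    have h2 : g * z * g⁻¹ ∈ (S : Subgroup G) := by
      have h3 : g * z * g⁻¹ = (z * g * z⁻¹ * g⁻¹)⁻¹ * z := by group
      rw [h3]
      exact (S : Subgroup G).mul_mem ((S : Subgroup G).inv_mem (hUS h1)) (hZS hz)
    have h3 := h z hz g h2
    have h4 : z * g * z⁻¹ * g⁻¹ = z * (g * z * g⁻¹)⁻¹ := by group
    rw [h4, h3, mul_inv_cancel]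
    exact Subgroup.one_mem _
  · -- the quotient by `O(G)`
    set O := pPrimeCore 2 G with hOdef
    have hsurj := QuotientGroup.mk'_surjective O
    have hcard : Nat.card (G ⧸ O) < n := by
      rw [← hn]
      have h1 := Subgroup.card_eq_card_quotient_mul_card_subgroup O
      have h2 : 1 < Nat.card O := (Subgroup.one_lt_card_iff_ne_bot O).2 hO
      have h3 : 0 < Nat.card (G ⧸ O) := Nat.card_pos
      rw [h1]; nlinarith
    have key := ih _ hcard (S.mapSurjective hsurj) (Z.map (QuotientGroup.mk' O)) rfl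
      (by rw [Sylow.coe_mapSurjective]; exact Subgroup.map_mono hZS) (by
        rintro _ ⟨w, hw, rfl⟩ g'
        obtain ⟨g, rfl⟩ := hsurj g'
        intro hm
        have hm' : QuotientGroup.mk' O (g * w * g⁻¹) ∈ (S : Subgroup G).map (QuotientGroup.mk' O) := by
          rw [← Sylow.coe_mapSurjective hsurj S, map_mul, map_mul, map_inv]
          exact hm
        obtain ⟨s, hs, hse⟩ := hm'
        have h1 : s⁻¹ * (g * w * g⁻¹) ∈ O := QuotientGroup.eq.1 hse
        have h2 : g * w * g⁻¹ ∈ (S : Subgroup G) ⊔ O := by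
          have := Subgroup.mul_mem_sup hs h1
          rwa [mul_inv_cancel_left] at this
        have hwp : IsPGroup 2 (Subgroup.zpowers (g * w * g⁻¹)) := by
          obtain ⟨k, hk⟩ := S.isPGroup' ⟨w, hZS hw⟩
          have hk' : w ^ 2 ^ k = 1 := congrArg Subtype.val hk
          have hy : (g * w * g⁻¹) ^ 2 ^ k = 1 := by rw [conj_pow, hk', mul_one, mul_inv_cancel]
          rintro ⟨_, j, rfl⟩
          refine ⟨k, Subtype.ext ?_⟩
          show ((g * w * g⁻¹) ^ j) ^ 2 ^ k = 1
          rw [← zpow_natCast, ← zpow_mul, mul_comm, zpow_mul, zpow_natCast, hy, one_zpow]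
        obtain ⟨m, hm1, hm2⟩ := exists_conj_mem_of_sup S.isPGroup' (by
          rw [Subgroup.normalizer_eq_top]; exact le_top) (CfsgH2.coprime_card_pPrimeCore 2) h2 hwp
        have h3 := h w hw (m * g) (by
          have : m * g * w * (m * g)⁻¹ = m * (g * w * g⁻¹) * m⁻¹ := by group
          rw [this]; exact hm2)
        have h4 : QuotientGroup.mk' O m = 1 := (QuotientGroup.eq_one_iff m).2 hm1
        have h5 := congrArg (QuotientGroup.mk' O) h3
        rw [map_mul, map_mul, map_inv, map_mul, h4, one_mul] at h5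
        exact h5) (QuotientGroup.mk' O z) ⟨z, hz, rfl⟩ (QuotientGroup.mk' O g)
    rw [CfsgH2.pPrimeCore_quotient_pPrimeCore, Subgroup.mem_bot, ← map_inv, ← map_inv, ← map_mul, ← map_mul, ← map_mul] at key
    exact (QuotientGroup.eq_one_iff _).1 key

end CfsgH8
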